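import Cfsg.Agent.Lib.Helper66.Q3.Defs
import Cfsg.Agent.Lib.Helper66.ASP4.ADJ
import Cfsg.Agent.Lib.Helper66.ASP4.SYMP

/-! Ladder Q3, rung ADA: a vector `v` with `f v (j v) = -1`. -/

set_option autoImplicit false
set_option linter.unusedSectionVars false
set_option linter.unusedVariables false

namespace Cfsg.Agent.Lib.Helper66.Q3
open Cfsg Cfsg.Geo Cfsg.Agent.Lib.Helper66.ASP4
open scoped MatrixGroups Matrix
variable {F : Type*} [Field F]

theorem ada_three [Fintype F] (hq : Fintype.card F = 3) : (3 : F) = 0 := by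
  have := Nat.cast_card_eq_zero F
  rw [hq] at this
  exact_mod_cast this

theorem ada_two_ne [Fintype F] (hq : Fintype.card F = 3) : (2 : F) ≠ 0 := by
  intro h
  have h3 := ada_three hq
  have : (1 : F) = 3 - 2 := by norm_num
  rw [h3, h, sub_zero] at this
  exact one_ne_zero this

theorem ada_cases [Fintype F] (hq : Fintype.card F = 3) (a : F) : a = 0 ∨ a = 1 ∨ a = -1 := by
  have h := FiniteField.pow_card a
  rw [hq] at h
  have h2 : a * ((a - 1) * (a + 1)) = 0 := by
    have : a * ((a - 1) * (a + 1)) = a ^ 3 - a := by ring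
    rw [this, h, sub_self]
  rcases mul_eq_zero.1 h2 with h3 | h3
  · exact Or.inl h3
  · rcases mul_eq_zero.1 h3 with h4 | h4
    · exact Or.inr (Or.inl (sub_eq_zero.1 h4))
    · exact Or.inr (Or.inr (eq_neg_of_add_eq_zero_left h4))

theorem ada_negr (u x : V4 F) : sympForm 2 F u (-x) = - sympForm 2 F u x := by
  have := (symp_isSymplectic 2 (F := F)).bilinear.smul_right (-1) u x
  simpa using this

theorem ada_adj (j : M4 F) (hadj : adjM 2 j = -j) (u v : V4 F) :
    sympForm 2 F (j *ᵥ u) v = - sympForm 2 F u (j *ᵥ v) := by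
  rw [adj_spec, hadj, Matrix.neg_mulVec, ada_negr]

theorem ada_jj (j : M4 F) (hj : j * j = -1) (v : V4 F) : j *ᵥ (j *ᵥ v) = -v := by
  rw [Matrix.mulVec_mulVec, hj, Matrix.neg_mulVec, Matrix.one_mulVec]

theorem ada_symm (j : M4 F) (hadj : adjM 2 j = -j) (u v : V4 F) :
    sympForm 2 F u (j *ᵥ v) = sympForm 2 F v (j *ᵥ u) := by
  rw [symp_skew 2 v (j *ᵥ u), ada_adj j hadj, neg_neg]

/-- `b (v + j v) (v + j v) = 2 b v v` for `b u v = f u (j v)`. -/
theorem ada_double (j : M4 F) (hadj : adjM 2 j = -j) (hj : j * j = -1) (v : V4 F) :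
    sympForm 2 F (v + j *ᵥ v) (j *ᵥ (v + j *ᵥ v)) = 2 * sympForm 2 F v (j *ᵥ v) := by
  have hB := (symp_isSymplectic 2 (F := F)).bilinear
  rw [Matrix.mulVec_add, ada_jj j hj, hB.add_left, hB.add_right, hB.add_right, ada_negr, ada_negr, symp_alt,
    symp_alt, ada_adj j hadj]
  ring

theorem ada_polar (j : M4 F) (hadj : adjM 2 j = -j) (u v : V4 F) :
    sympForm 2 F (u + v) (j *ᵥ (u + v)) =
      sympForm 2 F u (j *ᵥ u) + 2 * sympForm 2 F u (j *ᵥ v) + sympForm 2 F v (j *ᵥ v) := by
  have hB := (symp_isSymplectic 2 (F := F)).bilinear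
  rw [Matrix.mulVec_add, hB.add_left, hB.add_right, hB.add_right, ada_symm j hadj v u]
  ring

theorem exists_v1 [Fintype F] (hq : Fintype.card F = 3) (j : M4 F) (hadj : adjM 2 j = -j) (hj : j * j = -1) :
    ∃ v : V4 F, sympForm 2 F v (j *ᵥ v) = -1 := by
  by_contra hcon
  push Not at hcon
  have h3 := ada_three hq
  have h2 := ada_two_ne hq
  have hzero : ∀ v : V4 F, sympForm 2 F v (j *ᵥ v) = 0 := by
    intro v
    rcases ada_cases hq (sympForm 2 F v (j *ᵥ v)) with h | h | h
    · exact h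
    · exfalso
      apply hcon (v + j *ᵥ v)
      rw [ada_double j hadj hj, h, mul_one]
      have : (2 : F) = 3 - 1 := by norm_num
      rw [this, h3, zero_sub]
    · exact absurd h (hcon v)
  have hall : ∀ u v : V4 F, sympForm 2 F u (j *ᵥ v) = 0 := by
    intro u v
    have h := ada_polar j hadj u v
    rw [hzero, hzero, hzero, zero_add, add_zero] at h
    rcases mul_eq_zero.1 h.symm with h4 | h4
    · exact absurd h4 h2
    · exact h4
  have hv : (Pi.single (Sum.inl 0) 1 : V4 F) ≠ 0 := by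
    intro h
    have := congrFun h (Sum.inl 0)
    simp at this
  have hjv : j *ᵥ (Pi.single (Sum.inl 0) 1 : V4 F) ≠ 0 := by
    intro h
    apply hv
    have := ada_jj j hj (Pi.single (Sum.inl 0) 1 : V4 F)
    rw [h, Matrix.mulVec_zero] at this
    exact neg_eq_zero.1 this.symm
  obtain ⟨⟨x, hx⟩, _⟩ := (symp_isSymplectic 2 (F := F)).nondegenerate _ hjv
  exact hx (hall x _)

end Cfsg.Agent.Lib.Helper66.Q3
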