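import Cfsg.Agent.Lib.Helper66.Q3.Defs
import Cfsg.Agent.Lib.Helper66.ASP4.ADJ
import Cfsg.Agent.Lib.Helper66.ASP4.SYMP

set_option autoImplicit false
set_option linter.unusedSectionVars false
set_option linter.unusedVariables false

namespace Cfsg.Agent.Lib.Helper66.Q3
open Cfsg Cfsg.Geo Cfsg.Agent.Lib.Helper66.ASP4
open scoped MatrixGroups Matrix
variable {F : Type*} [Field F]

theorem adc_cases [Fintype F] (hq : Fintype.card F = 3) (a : F) : a = 0 ∨ a = 1 ∨ a = -1 := by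
  have h := FiniteField.pow_card a
  rw [hq] at h
  have h1 : a * ((a - 1) * (a + 1)) = 0 := by linear_combination h
  rcases mul_eq_zero.mp h1 with h | h
  · exact Or.inl h
  rcases mul_eq_zero.mp h with h | h
  · exact Or.inr (Or.inl (sub_eq_zero.mp h))
  · exact Or.inr (Or.inr (eq_neg_of_add_eq_zero_left h))

theorem adc_three [Fintype F] (hq : Fintype.card F = 3) : (3 : F) = 0 := by
  have := FiniteField.cast_card_eq_zero F
  rw [hq] at this
  exact_mod_cast this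

/-- `ξ ↦ f x ξ` as a linear map. -/
def adcR (x : V4 F) : V4 F →ₗ[F] F where
  toFun := fun ξ => sympForm 2 F x ξ
  map_add' := fun a b => (symp_isSymplectic 2).bilinear.add_right x a b
  map_smul' := fun c a => (symp_isSymplectic 2).bilinear.smul_right c x a

/-- ADC. -/
theorem exists_v2 [Fintype F] (hq : Fintype.card F = 3) (j : M4 F) (hadj : adjM 2 j = -j) (hj : j * j = -1)
    (v : V4 F) (hv : sympForm 2 F v (j *ᵥ v) = -1) :
    ∃ w : V4 F, sympForm 2 F v w = 0 ∧ sympForm 2 F (j *ᵥ v) w = 0 ∧ sympForm 2 F w (j *ᵥ w) = -1 := by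
  have h3 : (3 : F) = 0 := adc_three hq
  have h2 : (2 : F) ≠ 0 := by
    intro h
    have : (1 : F) = 0 := by linear_combination h3 - h
    exact one_ne_zero this
  have fal : ∀ x y z : V4 F, sympForm 2 F (x + y) z = sympForm 2 F x z + sympForm 2 F y z :=
    (symp_isSymplectic 2).bilinear.add_left
  have fsl : ∀ (c : F) (x z : V4 F), sympForm 2 F (c • x) z = c * sympForm 2 F x z :=
    (symp_isSymplectic 2).bilinear.smul_left
  have far : ∀ x y z : V4 F, sympForm 2 F x (y + z) = sympForm 2 F x y + sympForm 2 F x z :=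
    (symp_isSymplectic 2).bilinear.add_right
  have fsr : ∀ (c : F) (x z : V4 F), sympForm 2 F x (c • z) = c * sympForm 2 F x z :=
    (symp_isSymplectic 2).bilinear.smul_right
  have fnr : ∀ x y : V4 F, sympForm 2 F x (-y) = - sympForm 2 F x y := by
    intro x y; rw [← neg_one_smul F y, fsr]; ring
  have hJJ : ∀ w : V4 F, j *ᵥ (j *ᵥ w) = -w := by
    intro w; rw [Matrix.mulVec_mulVec, hj, Matrix.neg_mulVec, Matrix.one_mulVec]
  have hA : ∀ u w : V4 F, sympForm 2 F (j *ᵥ u) w = - sympForm 2 F u (j *ᵥ w) := by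
    intro u w; rw [adj_spec, hadj, Matrix.neg_mulVec, fnr]
  have hS : ∀ u w : V4 F, sympForm 2 F u (j *ᵥ w) = sympForm 2 F w (j *ᵥ u) := by
    intro u w; rw [symp_skew, hA, neg_neg]
  have hWj : ∀ w : V4 F, sympForm 2 F v w = 0 → sympForm 2 F (j *ᵥ v) w = 0 →
      sympForm 2 F v (j *ᵥ w) = 0 ∧ sympForm 2 F (j *ᵥ v) (j *ᵥ w) = 0 := by
    intro w h1 h2
    constructor
    · rw [hS, symp_skew, h2, neg_zero]
    · rw [hA, hJJ, fnr, h1]; simp
  have hβ : ∀ x y : V4 F, sympForm 2 F (x + y) (j *ᵥ (x + y))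
      = sympForm 2 F x (j *ᵥ x) + 2 * sympForm 2 F x (j *ᵥ y) + sympForm 2 F y (j *ᵥ y) := by
    intro x y
    rw [Matrix.mulVec_add, fal, far, far, hS y x]; ring
  -- a nonzero vector of `W`
  obtain ⟨w0, hw0, hw0ne⟩ : ∃ w0 : V4 F, w0 ∈ LinearMap.ker
      (LinearMap.pi ![adcR v, adcR (j *ᵥ v)] : V4 F →ₗ[F] (Fin 2 → F)) ∧ w0 ≠ 0 := by
    apply Submodule.exists_mem_ne_zero_of_ne_bot
    apply LinearMap.ker_ne_bot_of_finrank_lt
    rw [Module.finrank_fin_fun, Module.finrank_fintype_fun_eq_card]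
    simp
  have hw01 : sympForm 2 F v w0 = 0 := by
    have := congrFun (LinearMap.mem_ker.mp hw0) 0
    exact this
  have hw02 : sympForm 2 F (j *ᵥ v) w0 = 0 := by
    have := congrFun (LinearMap.mem_ker.mp hw0) 1
    exact this
  have hjw0 : j *ᵥ w0 ≠ 0 := by
    intro h
    apply hw0ne
    have := hJJ w0
    rw [h, Matrix.mulVec_zero] at this
    exact neg_eq_zero.mp this.symm
  obtain ⟨⟨u, hu⟩, _⟩ := (symp_isSymplectic (F := F) 2).nondegenerate (j *ᵥ w0) hjw0
  obtain ⟨hjw1, hjw2⟩ := hWj w0 hw01 hw02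
  obtain ⟨u', hu'⟩ : ∃ u' : V4 F, u' = u + (-(sympForm 2 F (j *ᵥ v) u)) • v
      + (sympForm 2 F v u) • (j *ᵥ v) := ⟨_, rfl⟩
  have hjvv : sympForm 2 F (j *ᵥ v) v = 1 := by rw [symp_skew, hv, neg_neg]
  have hu1 : sympForm 2 F v u' = 0 := by
    rw [hu', far, far, fsr, fsr, symp_alt, hv]; ring
  have hu2 : sympForm 2 F (j *ᵥ v) u' = 0 := by
    rw [hu', far, far, fsr, fsr, symp_alt, hjvv]; ring
  have hu3 : sympForm 2 F u' (j *ᵥ w0) ≠ 0 := by
    rw [hu', fal, fal, fsl, fsl, hjw1, hjw2]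
    simpa using hu
  -- a vector of `W` with nonzero value
  obtain ⟨w, hw1, hw2, hw3⟩ : ∃ w : V4 F, sympForm 2 F v w = 0 ∧ sympForm 2 F (j *ᵥ v) w = 0 ∧
      sympForm 2 F w (j *ᵥ w) ≠ 0 := by
    by_contra hcon
    push Not at hcon
    have a1 := hcon u' hu1 hu2
    have a2 := hcon w0 hw01 hw02
    have a3 := hcon (u' + w0) (by rw [far, hu1, hw01, add_zero]) (by rw [far, hu2, hw02, add_zero])
    rw [hβ, a1, a2] at a3
    apply hu3
    have : 2 * sympForm 2 F u' (j *ᵥ w0) = 0 := by linear_combination a3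
    exact (mul_eq_zero.mp this).resolve_left h2
  rcases adc_cases hq (sympForm 2 F w (j *ᵥ w)) with h | h | h
  · exact absurd h hw3
  · obtain ⟨hj1, hj2⟩ := hWj w hw1 hw2
    refine ⟨w + j *ᵥ w, by rw [far, hw1, hj1, add_zero], by rw [far, hw2, hj2, add_zero], ?_⟩
    rw [hβ, hJJ, fnr, fnr, symp_alt, symp_skew (F := F) 2 (j *ᵥ w) w, h]
    linear_combination h3
  · exact ⟨w, hw1, hw2, h⟩

end Cfsg.Agent.Lib.Helper66.Q3
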