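import Cfsg.Agent.Lib.Helper66.Q3.Defs
import Cfsg.Agent.Lib.Helper66.ASP4.ADJ

set_option autoImplicit false
set_option linter.unusedSectionVars false
set_option linter.unusedVariables false

namespace Cfsg.Agent.Lib.Helper66.Q3
open Cfsg Cfsg.Geo Cfsg.Agent.Lib.Helper66.ASP4
open scoped MatrixGroups Matrix
variable {F : Type*} [Field F]

theorem spm_form (x : M4 F) (u v : V4 F) :
    sympForm 2 F (x *ᵥ u) (x *ᵥ v) = u ⬝ᵥ ((xᵀ * Matrix.J (Fin 2) F * x) *ᵥ v) := by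
  unfold sympForm
  rw [adj_mulVec_dot, Matrix.mulVec_mulVec, Matrix.mulVec_mulVec, mul_assoc]

/-- SPM. -/
theorem mem_spGL_iff (g : GL (Fin 2 ⊕ Fin 2) F) : g ∈ spGL 2 F ↔ IsSp (g : M4 F) := by
  have h0 : g ∈ spGL 2 F ↔ ∀ u v : V4 F, sympForm 2 F ((g : M4 F) *ᵥ u) ((g : M4 F) *ᵥ v) = sympForm 2 F u v :=
    Iff.rfl
  rw [h0]
  constructor
  · intro h
    apply adj_ext
    intro u v
    rw [← spm_form, h]
    rfl
  · intro h u v
    rw [spm_form, h]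
    rfl

end Cfsg.Agent.Lib.Helper66.Q3
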