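import Cfsg.Agent.Lib.Helper66.Q3.Defs
import Cfsg.Agent.Lib.Helper66.ASP4.ADJ
import Cfsg.Agent.Lib.Helper66.Q3.SPM

set_option autoImplicit false
set_option linter.unusedSectionVars false
set_option linter.unusedVariables false

namespace Cfsg.Agent.Lib.Helper66.Q3
open Cfsg Cfsg.Geo Cfsg.Agent.Lib.Helper66.ASP4
open scoped MatrixGroups Matrix
variable {F : Type*} [Field F]

/-- FRAME. -/
theorem frame_mem (y : Fin 2 ⊕ Fin 2 → V4 F)
    (hy : ∀ i k, sympForm 2 F (y i) (y k) = Matrix.J (Fin 2) F i k) :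
    ∃ P : GL (Fin 2 ⊕ Fin 2) F, P ∈ spGL 2 F ∧ ∀ i, (P : M4 F) *ᵥ Pi.single i 1 = y i := by
  let P₀ : M4 F := Matrix.of (fun a i => y i a)
  have hcol : ∀ i, P₀ *ᵥ Pi.single i 1 = y i := by
    intro i
    funext a
    simp [P₀]
  have hsp : IsSp P₀ := by
    unfold IsSp
    ext i k
    have h1 := spm_form P₀ (Pi.single i 1) (Pi.single k 1)
    rw [hcol, hcol, hy] at h1
    rw [h1]
    simp
  have hJ : (Matrix.J (Fin 2) F).det ≠ 0 := (Matrix.isUnit_det_J (Fin 2) F).ne_zero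
  have hdet : P₀.det ≠ 0 := by
    intro h0
    have := congrArg Matrix.det hsp
    rw [Matrix.det_mul, Matrix.det_mul, h0, mul_zero] at this
    exact hJ this.symm
  refine ⟨Matrix.GeneralLinearGroup.mkOfDetNeZero P₀ hdet, ?_, ?_⟩
  · rw [mem_spGL_iff]
    exact hsp
  · intro i
    exact hcol i

end Cfsg.Agent.Lib.Helper66.Q3
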