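import Cfsg.Agent.Lib.Helper66.Q3.Defs
import Cfsg.Agent.Lib.Helper66.ASP4.ADJ
import Cfsg.Agent.Lib.Helper66.ASP4.SYMP
import Cfsg.Agent.Lib.Helper66.Q3.ADA
import Cfsg.Agent.Lib.Helper66.Q3.ADC
import Cfsg.Agent.Lib.Helper66.Q3.FRAME

/-! Ladder Q3, rung ADP. -/

set_option autoImplicit false
set_option linter.unusedSectionVars false
set_option linter.unusedVariables false

namespace Cfsg.Agent.Lib.Helper66.Q3
open Cfsg Cfsg.Geo Cfsg.Agent.Lib.Helper66.ASP4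
open scoped MatrixGroups Matrix
variable {F : Type*} [Field F]

theorem adp_neg_right (u v : V4 F) : sympForm 2 F u (-v) = - sympForm 2 F u v := by
  unfold sympForm
  rw [Matrix.mulVec_neg, dotProduct_neg]

/-- columns decide a matrix. -/
theorem adp_ext (M N : M4 F) (h : ∀ i, M *ᵥ Pi.single i 1 = N *ᵥ Pi.single i 1) : M = N := by
  ext a i
  have := congrFun (h i) a
  simpa using this

theorem adp_J_inl (i : Fin 2) :
    Matrix.J (Fin 2) F *ᵥ Pi.single (Sum.inl i) 1 = Pi.single (Sum.inr i) 1 := by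
  ext a
  rcases a with a | a
  · simp [Matrix.J, Matrix.mulVec_single_one, Matrix.col_apply]
  · simp [Matrix.J, Matrix.mulVec_single_one, Matrix.col_apply, Matrix.one_apply, Pi.single_apply]

theorem adp_J_inr (i : Fin 2) :
    Matrix.J (Fin 2) F *ᵥ Pi.single (Sum.inr i) 1 = - Pi.single (Sum.inl i) 1 := by
  ext a
  rcases a with a | a
  · simp [Matrix.J, Matrix.mulVec_single_one, Matrix.col_apply, Matrix.one_apply, Pi.single_apply]
  · simp [Matrix.J, Matrix.mulVec_single_one, Matrix.col_apply]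

/-- ADP. -/
theorem exists_adapted [Fintype F] (hq : Fintype.card F = 3) (j : M4 F) (hadj : adjM 2 j = -j) (hj : j * j = -1) :
    ∃ P : GL (Fin 2 ⊕ Fin 2) F, P ∈ spGL 2 F ∧ j * (P : M4 F) = (P : M4 F) * Matrix.J (Fin 2) F := by
  obtain ⟨v₁, h1⟩ := exists_v1 hq j hadj hj
  obtain ⟨v₂, h2a, h2b, h2c⟩ := exists_v2 hq j hadj hj v₁ h1
  have hA : ∀ u v : V4 F, sympForm 2 F (j *ᵥ u) v = - sympForm 2 F u (j *ᵥ v) := by
    intro u v
    rw [adj_spec, hadj, Matrix.neg_mulVec, adp_neg_right]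
  have hjj : ∀ v : V4 F, j *ᵥ (j *ᵥ v) = -v := by
    intro v
    rw [Matrix.mulVec_mulVec, hj, Matrix.neg_mulVec, Matrix.one_mulVec]
  have hB : ∀ u v : V4 F, sympForm 2 F (j *ᵥ u) (j *ᵥ v) = sympForm 2 F u v := by
    intro u v
    rw [hA, hjj, adp_neg_right, neg_neg]
  have h21 : sympForm 2 F v₂ v₁ = 0 := by rw [symp_skew, h2a, neg_zero]
  have h12j : sympForm 2 F v₁ (j *ᵥ v₂) = 0 := by
    have := hA v₁ v₂
    rw [h2b] at this
    exact neg_eq_zero.1 this.symm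
  have h21j : sympForm 2 F v₂ (j *ᵥ v₁) = 0 := by rw [symp_skew, h2b, neg_zero]
  have hj11 : sympForm 2 F (j *ᵥ v₁) v₁ = 1 := by rw [hA, h1, neg_neg]
  have hj22 : sympForm 2 F (j *ᵥ v₂) v₂ = 1 := by rw [hA, h2c, neg_neg]
  have hj21 : sympForm 2 F (j *ᵥ v₂) v₁ = 0 := by rw [hA, h21j, neg_zero]
  obtain ⟨P, hP, hPy⟩ := frame_mem (Sum.elim ![v₁, v₂] ![j *ᵥ v₁, j *ᵥ v₂]) (by
    intro i k
    rcases i with i | i <;> rcases k with k | k <;> fin_cases i <;> fin_cases k <;>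
      simp [Matrix.J, symp_alt, h1, h2a, h2b, h2c, h21, h12j, h21j, hj11, hj22, hj21, hB])
  refine ⟨P, hP, ?_⟩
  apply adp_ext
  intro i
  rw [← Matrix.mulVec_mulVec, ← Matrix.mulVec_mulVec, hPy]
  rcases i with i | i
  · rw [adp_J_inl, hPy]
    fin_cases i <;> simp
  · rw [adp_J_inr, Matrix.mulVec_neg, hPy]
    fin_cases i <;> simp [hjj]

end Cfsg.Agent.Lib.Helper66.Q3
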