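import Cfsg.Agent.Lib.Helper66.Q3.Defs

/-! Ladder Q3, rung BLK: block form of the stabiliser of a decomposition into two planes. -/

set_option autoImplicit false
set_option linter.unusedSectionVars false
set_option linter.unusedVariables false

namespace Cfsg.Agent.Lib.Helper66.Q3
open Cfsg Cfsg.Geo Cfsg.Agent.Lib.Helper66.ASP4
open scoped MatrixGroups Matrix
variable {F : Type*} [Field F]

theorem blk_memL (W : Submodule F (V4 F)) (P : M4 F)
    (h0 : ∀ i : Fin 2, P *ᵥ Pi.single (Sum.inl i) 1 ∈ W) (x : Fin 2 → F) :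
    P *ᵥ (Sum.elim x (fun _ => 0) : V4 F) ∈ W := by
  have h : (Sum.elim x (fun _ => 0) : V4 F) =
      x 0 • Pi.single (Sum.inl 0) 1 + x 1 • Pi.single (Sum.inl 1) 1 := by
    funext s
    rcases s with s | s
    · fin_cases s <;> simp
    · simp
  rw [h, Matrix.mulVec_add, Matrix.mulVec_smul, Matrix.mulVec_smul]
  exact W.add_mem (W.smul_mem _ (h0 0)) (W.smul_mem _ (h0 1))

theorem blk_memR (W : Submodule F (V4 F)) (P : M4 F)
    (h1 : ∀ i : Fin 2, P *ᵥ Pi.single (Sum.inr i) 1 ∈ W) (x : Fin 2 → F) :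
    P *ᵥ (Sum.elim (fun _ => 0) x : V4 F) ∈ W := by
  have h : (Sum.elim (fun _ => 0) x : V4 F) =
      x 0 • Pi.single (Sum.inr 0) 1 + x 1 • Pi.single (Sum.inr 1) 1 := by
    funext s
    rcases s with s | s
    · simp
    · fin_cases s <;> simp
  rw [h, Matrix.mulVec_add, Matrix.mulVec_smul, Matrix.mulVec_smul]
  exact W.add_mem (W.smul_mem _ (h1 0)) (W.smul_mem _ (h1 1))

theorem blk_split (c : V4 F) :
    c = (Sum.elim (fun k => c (Sum.inl k)) (fun _ => 0) : V4 F) + (Sum.elim (fun _ => 0) (fun k => c (Sum.inr k)) : V4 F) := by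
  funext s
  rcases s with s | s <;> simp

theorem blk_key (W₀ W₁ : Submodule F (V4 F)) (hdis : Disjoint W₀ W₁) (P : GL (Fin 2 ⊕ Fin 2) F)
    (h0 : ∀ i : Fin 2, (P : M4 F) *ᵥ Pi.single (Sum.inl i) 1 ∈ W₀)
    (h1 : ∀ i : Fin 2, (P : M4 F) *ᵥ Pi.single (Sum.inr i) 1 ∈ W₁) :
    (∀ v ∈ W₀, ∀ k, (((P⁻¹ : GL (Fin 2 ⊕ Fin 2) F) : M4 F) *ᵥ v) (Sum.inr k) = 0) ∧
    (∀ v ∈ W₁, ∀ k, (((P⁻¹ : GL (Fin 2 ⊕ Fin 2) F) : M4 F) *ᵥ v) (Sum.inl k) = 0) := by
  have hPP : ∀ v : V4 F, (P : M4 F) *ᵥ (((P⁻¹ : GL (Fin 2 ⊕ Fin 2) F) : M4 F) *ᵥ v) = v := by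
    intro v
    rw [Matrix.mulVec_mulVec, ← Units.val_mul, mul_inv_cancel, Units.val_one, Matrix.one_mulVec]
  have hPP' : ∀ v : V4 F, ((P⁻¹ : GL (Fin 2 ⊕ Fin 2) F) : M4 F) *ᵥ ((P : M4 F) *ᵥ v) = v := by
    intro v
    rw [Matrix.mulVec_mulVec, ← Units.val_mul, inv_mul_cancel, Units.val_one, Matrix.one_mulVec]
  have hzero : ∀ b : V4 F, (P : M4 F) *ᵥ b = 0 → b = 0 := by
    intro b hb
    rw [← hPP' b, hb, Matrix.mulVec_zero]
  rw [Submodule.disjoint_def] at hdis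
  constructor
  · intro v hv k
    set c := ((P⁻¹ : GL (Fin 2 ⊕ Fin 2) F) : M4 F) *ᵥ v with hc
    have hv2 : v = (P : M4 F) *ᵥ (Sum.elim (fun k => c (Sum.inl k)) (fun _ => 0) : V4 F) +
        (P : M4 F) *ᵥ (Sum.elim (fun _ => 0) (fun k => c (Sum.inr k)) : V4 F) := by
      rw [← Matrix.mulVec_add, ← blk_split c, hc, hPP]
    have ha := blk_memL W₀ (P : M4 F) h0 (fun k => c (Sum.inl k))
    have hb := blk_memR W₁ (P : M4 F) h1 (fun k => c (Sum.inr k))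
    have hb0 : (P : M4 F) *ᵥ (Sum.elim (fun _ => 0) (fun k => c (Sum.inr k)) : V4 F) ∈ W₀ := by
      have : (P : M4 F) *ᵥ (Sum.elim (fun _ => 0) (fun k => c (Sum.inr k)) : V4 F) =
          v - (P : M4 F) *ᵥ (Sum.elim (fun k => c (Sum.inl k)) (fun _ => 0) : V4 F) := by
        rw [eq_sub_iff_add_eq, add_comm]; exact hv2.symm
      rw [this]
      exact W₀.sub_mem hv ha
    have hz := hzero _ (hdis _ hb0 hb)
    have := congrFun hz (Sum.inr k)
    simpa using this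
  · intro v hv k
    set c := ((P⁻¹ : GL (Fin 2 ⊕ Fin 2) F) : M4 F) *ᵥ v with hc
    have hv2 : v = (P : M4 F) *ᵥ (Sum.elim (fun k => c (Sum.inl k)) (fun _ => 0) : V4 F) +
        (P : M4 F) *ᵥ (Sum.elim (fun _ => 0) (fun k => c (Sum.inr k)) : V4 F) := by
      rw [← Matrix.mulVec_add, ← blk_split c, hc, hPP]
    have ha := blk_memL W₀ (P : M4 F) h0 (fun k => c (Sum.inl k))
    have hb := blk_memR W₁ (P : M4 F) h1 (fun k => c (Sum.inr k))
    have ha1 : (P : M4 F) *ᵥ (Sum.elim (fun k => c (Sum.inl k)) (fun _ => 0) : V4 F) ∈ W₁ := by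
      have : (P : M4 F) *ᵥ (Sum.elim (fun k => c (Sum.inl k)) (fun _ => 0) : V4 F) =
          v - (P : M4 F) *ᵥ (Sum.elim (fun _ => 0) (fun k => c (Sum.inr k)) : V4 F) := by
        rw [eq_sub_iff_add_eq]; exact hv2.symm
      rw [this]
      exact W₁.sub_mem hv hb
    have hz := hzero _ (hdis _ ha ha1)
    have := congrFun hz (Sum.inl k)
    simpa using this

theorem block_form (D : Fin 2 → Submodule F (V4 F)) (hD : IsMDecomposition 2 D) (P : GL (Fin 2 ⊕ Fin 2) F)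
    (h0 : ∀ i : Fin 2, (P : M4 F) *ᵥ Pi.single (Sum.inl i) 1 ∈ D 0)
    (h1 : ∀ i : Fin 2, (P : M4 F) *ᵥ Pi.single (Sum.inr i) 1 ∈ D 1)
    (g : GL (Fin 2 ⊕ Fin 2) F) (hg : g ∈ decompositionStabilizer D) :
    (∃ A B : Matrix (Fin 2) (Fin 2) F, ((P⁻¹ * g * P : GL (Fin 2 ⊕ Fin 2) F) : M4 F) = Matrix.fromBlocks A 0 0 B) ∨
    (∃ A B : Matrix (Fin 2) (Fin 2) F, ((P⁻¹ * g * P : GL (Fin 2 ⊕ Fin 2) F) : M4 F) = Matrix.fromBlocks 0 A B 0) := by
  obtain ⟨σ, hσ⟩ := hg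
  have hdis : Disjoint (D 0) (D 1) := hD.indep.pairwiseDisjoint (by decide : (0 : Fin 2) ≠ 1)
  obtain ⟨hk0, hk1⟩ := blk_key (D 0) (D 1) hdis P h0 h1
  have hmap : ∀ (i : Fin 2) (v : V4 F), v ∈ D i → (g : M4 F) *ᵥ v ∈ D (σ i) := by
    intro i v hv
    rw [← hσ i]
    exact ⟨v, hv, by rw [Matrix.toLin'_apply]⟩
  set Y : M4 F := ((P⁻¹ * g * P : GL (Fin 2 ⊕ Fin 2) F) : M4 F) with hY
  have hcol : ∀ s t, Y s t =
      (((P⁻¹ : GL (Fin 2 ⊕ Fin 2) F) : M4 F) *ᵥ ((g : M4 F) *ᵥ ((P : M4 F) *ᵥ Pi.single t 1))) s := by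
    intro s t
    rw [Matrix.mulVec_mulVec, Matrix.mulVec_mulVec, Matrix.mulVec_single_one, hY, Units.val_mul, Units.val_mul,
      Matrix.mul_assoc]
    rfl
  have hcases : (σ 0 = 0 ∧ σ 1 = 1) ∨ (σ 0 = 1 ∧ σ 1 = 0) := by
    have hinj := σ.injective
    have hne : σ 0 ≠ σ 1 := fun h => absurd (hinj h) (by decide)
    generalize σ 0 = a at *
    generalize σ 1 = b at *
    fin_cases a <;> fin_cases b <;> simp_all
  rcases hcases with ⟨hs0, hs1⟩ | ⟨hs0, hs1⟩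
  · left
    refine ⟨Y.toBlocks₁₁, Y.toBlocks₂₂, ?_⟩
    ext s t
    rcases s with s | s <;> rcases t with t | t
    · rfl
    · rw [Matrix.fromBlocks_apply₁₂, hcol]
      have := hmap 1 _ (h1 t)
      rw [hs1] at this
      exact hk1 _ this s
    · rw [Matrix.fromBlocks_apply₂₁, hcol]
      have := hmap 0 _ (h0 t)
      rw [hs0] at this
      exact hk0 _ this s
    · rfl
  · right
    refine ⟨Y.toBlocks₁₂, Y.toBlocks₂₁, ?_⟩
    ext s t
    rcases s with s | s <;> rcases t with t | t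
    · rw [Matrix.fromBlocks_apply₁₁, hcol]
      have := hmap 0 _ (h0 t)
      rw [hs0] at this
      exact hk1 _ this s
    · rfl
    · rfl
    · rw [Matrix.fromBlocks_apply₂₂, hcol]
      have := hmap 1 _ (h1 t)
      rw [hs1] at this
      exact hk0 _ this s

end Cfsg.Agent.Lib.Helper66.Q3
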