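import Cfsg.Agent.Lib.Helper66.Q3.Defs

/-! Ladder Q3, rung COMM. -/

set_option autoImplicit false
set_option linter.unusedSectionVars false
set_option linter.unusedVariables false

namespace Cfsg.Agent.Lib.Helper66.Q3
open Cfsg Cfsg.Geo Cfsg.Agent.Lib.Helper66.ASP4
open scoped MatrixGroups Matrix
variable {F : Type*} [Field F]

theorem comm_three [Fintype F] (hq : Fintype.card F = 3) (x : F) : x = 0 ∨ x = 1 ∨ x = -1 := by
  have h := FiniteField.pow_card x
  rw [hq] at h
  have h2 : x * ((x - 1) * (x + 1)) = 0 := by linear_combination h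
  rcases mul_eq_zero.1 h2 with h | h
  · exact Or.inl h
  · rcases mul_eq_zero.1 h with h | h
    · exact Or.inr (Or.inl (sub_eq_zero.1 h))
    · exact Or.inr (Or.inr (eq_neg_of_add_eq_zero_left h))

theorem comm_plus (a b c d : F) :
    (!![a, b; c, d] : Matrix (Fin 2) (Fin 2) F) * eps = eps * !![d, -c; -b, a] ∧
      (!![d, -c; -b, a] : Matrix (Fin 2) (Fin 2) F) * eps = eps * !![a, b; c, d] := by
  constructor <;>
    (ext i j; fin_cases i <;> fin_cases j <;> simp [eps, Matrix.mul_apply, Fin.sum_univ_two])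

theorem comm_minus (a b c d : F) :
    (!![a, b; c, d] : Matrix (Fin 2) (Fin 2) F) * eps = -(eps * !![-d, c; b, -a]) ∧
      (!![-d, c; b, -a] : Matrix (Fin 2) (Fin 2) F) * eps = -(eps * !![a, b; c, d]) := by
  constructor <;>
    (ext i j; fin_cases i <;> fin_cases j <;> simp [eps, Matrix.mul_apply, Fin.sum_univ_two])

theorem comm_aux [Fintype F] (hq : Fintype.card F = 3) (A B : Matrix (Fin 2) (Fin 2) F) (h : Aᵀ * B = 1) :
    (A * eps = eps * B ∧ B * eps = eps * A) ∨ (A * eps = -(eps * B) ∧ B * eps = -(eps * A)) := by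
  have h00 : A 0 0 * B 0 0 + A 1 0 * B 1 0 = 1 := by
    have := congrFun (congrFun h 0) 0
    simpa [Matrix.mul_apply, Fin.sum_univ_two, Matrix.transpose_apply] using this
  have h01 : A 0 0 * B 0 1 + A 1 0 * B 1 1 = 0 := by
    have := congrFun (congrFun h 0) 1
    simpa [Matrix.mul_apply, Fin.sum_univ_two, Matrix.transpose_apply] using this
  have h10 : A 0 1 * B 0 0 + A 1 1 * B 1 0 = 0 := by
    have := congrFun (congrFun h 1) 0
    simpa [Matrix.mul_apply, Fin.sum_univ_two, Matrix.transpose_apply] using this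
  have h11 : A 0 1 * B 0 1 + A 1 1 * B 1 1 = 1 := by
    have := congrFun (congrFun h 1) 1
    simpa [Matrix.mul_apply, Fin.sum_univ_two, Matrix.transpose_apply] using this
  have He : (A 0 0 * A 1 1 - A 0 1 * A 1 0) * B 0 0 = A 1 1 := by
    linear_combination A 1 1 * h00 - A 1 0 * h10
  have Hg : (A 0 0 * A 1 1 - A 0 1 * A 1 0) * B 1 0 = - A 0 1 := by
    linear_combination A 0 0 * h10 - A 0 1 * h00
  have Hf : (A 0 0 * A 1 1 - A 0 1 * A 1 0) * B 0 1 = - A 1 0 := by
    linear_combination A 1 1 * h01 - A 1 0 * h11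
  have Hh : (A 0 0 * A 1 1 - A 0 1 * A 1 0) * B 1 1 = A 0 0 := by
    linear_combination A 0 0 * h11 - A 0 1 * h01
  have hA := Matrix.eta_fin_two A
  have hB := Matrix.eta_fin_two B
  rcases comm_three hq (A 0 0 * A 1 1 - A 0 1 * A 1 0) with hd | hd | hd
  · exfalso
    rw [hd, zero_mul] at He Hg Hf Hh
    rw [← Hh, zero_mul, zero_add] at h00
    have : A 1 0 = 0 := by linear_combination Hf
    rw [this, zero_mul] at h00
    exact zero_ne_one h00
  · left
    rw [hd, one_mul] at He Hg Hf Hh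
    rw [He, Hg, Hf, Hh] at hB
    rw [hB]
    conv_lhs => rw [hA]
    conv_rhs => rw [hA]
    exact comm_plus _ _ _ _
  · right
    rw [hd, neg_one_mul] at He Hg Hf Hh
    have He' : B 0 0 = - A 1 1 := by linear_combination -He
    have Hg' : B 1 0 = A 0 1 := by linear_combination -Hg
    have Hf' : B 0 1 = A 1 0 := by linear_combination -Hf
    have Hh' : B 1 1 = - A 0 0 := by linear_combination -Hh
    rw [He', Hg', Hf', Hh'] at hB
    rw [hB]
    conv_lhs => rw [hA]
    conv_rhs => rw [hA]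
    exact comm_minus _ _ _ _

/-- COMM. -/
theorem comm_X3 [Fintype F] (hq : Fintype.card F = 3) (y : M4 F) (hy : IsSp y)
    (h : (∃ A B : Matrix (Fin 2) (Fin 2) F, y = Matrix.fromBlocks A 0 0 B) ∨
      (∃ A B : Matrix (Fin 2) (Fin 2) F, y = Matrix.fromBlocks 0 A B 0)) :
    y * XX 3 = XX 3 * y ∨ y * XX 3 = -(XX 3 * y) := by
  have hX : (XX 3 : M4 F) = Matrix.fromBlocks 0 (-eps) eps 0 := rfl
  rcases h with ⟨A, B, rfl⟩ | ⟨A, B, rfl⟩
  · have h1 : Aᵀ * B = 1 := by
      unfold IsSp at hy
      rw [Matrix.J, Matrix.fromBlocks_transpose, Matrix.fromBlocks_multiply, Matrix.fromBlocks_multiply,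
        Matrix.fromBlocks_inj] at hy
      have := hy.2.1
      simpa using this
    rw [hX, Matrix.fromBlocks_multiply, Matrix.fromBlocks_multiply]
    rcases comm_aux hq A B h1 with ⟨h2, h3⟩ | ⟨h2, h3⟩
    · left
      simp [h2, h3]
    · right
      simp [h2, h3, Matrix.fromBlocks_neg]
  · have h1 : Aᵀ * (-B) = 1 := by
      unfold IsSp at hy
      rw [Matrix.J, Matrix.fromBlocks_transpose, Matrix.fromBlocks_multiply, Matrix.fromBlocks_multiply,
        Matrix.fromBlocks_inj] at hy
      have := hy.2.2.1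
      simpa using this
    rw [hX, Matrix.fromBlocks_multiply, Matrix.fromBlocks_multiply]
    rcases comm_aux hq A (-B) h1 with ⟨h2, h3⟩ | ⟨h2, h3⟩
    · left
      have h3' : B * eps = -(eps * A) := by rw [← h3]; simp
      simp [h2, h3']
    · right
      have h3' : B * eps = eps * A := by
        have : -(B * eps) = -(eps * A) := by rw [← h3]; simp
        exact neg_injective this
      simp [h2, h3', Matrix.fromBlocks_neg]

end Cfsg.Agent.Lib.Helper66.Q3
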