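import Cfsg.Agent.Lib.Helper66.Q3.Defs
import Cfsg.Agent.Lib.Helper66.ASP4.ADJ
import Cfsg.Agent.Lib.Helper66.ASP4.SYMP
import Cfsg.Agent.Lib.Helper66.ASP4.IDEC

set_option autoImplicit false
set_option linter.unusedSectionVars false
set_option linter.unusedVariables false

namespace Cfsg.Agent.Lib.Helper66.Q3
open Cfsg Cfsg.Geo Cfsg.Agent.Lib.Helper66.ASP4
open scoped MatrixGroups Matrix
variable {F : Type*} [Field F]

/-- CONJJ. -/
theorem conj_j (K : Subalgebra F (M4 F)) (hK : IsFieldSubalgebra 2 K) (j : M4 F) (hjK : j ∈ K) (hj : j * j = -1)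
    (g : GL (Fin 2 ⊕ Fin 2) F) (hg : g ∈ subalgebraNormalizer K) :
    (g : M4 F) * j * ((g⁻¹ : GL (Fin 2 ⊕ Fin 2) F) : M4 F) = j ∨
      (g : M4 F) * j * ((g⁻¹ : GL (Fin 2 ⊕ Fin 2) F) : M4 F) = -j := by
  have hgi : ((g⁻¹ : GL (Fin 2 ⊕ Fin 2) F) : M4 F) * (g : M4 F) = 1 := by
    rw [← Units.val_mul, inv_mul_cancel, Units.val_one]
  have hgi' : (g : M4 F) * ((g⁻¹ : GL (Fin 2 ⊕ Fin 2) F) : M4 F) = 1 := by
    rw [← Units.val_mul, mul_inv_cancel, Units.val_one]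
  have hyK : (g : M4 F) * j * ((g⁻¹ : GL (Fin 2 ⊕ Fin 2) F) : M4 F) ∈ K := (hg j).1 hjK
  have hyy : ((g : M4 F) * j * ((g⁻¹ : GL (Fin 2 ⊕ Fin 2) F) : M4 F)) *
      ((g : M4 F) * j * ((g⁻¹ : GL (Fin 2 ⊕ Fin 2) F) : M4 F)) = -1 := by
    calc ((g : M4 F) * j * ((g⁻¹ : GL (Fin 2 ⊕ Fin 2) F) : M4 F)) *
        ((g : M4 F) * j * ((g⁻¹ : GL (Fin 2 ⊕ Fin 2) F) : M4 F))
        = (g : M4 F) * j * (((g⁻¹ : GL (Fin 2 ⊕ Fin 2) F) : M4 F) * (g : M4 F)) * j *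
            ((g⁻¹ : GL (Fin 2 ⊕ Fin 2) F) : M4 F) := by simp only [mul_assoc]
      _ = (g : M4 F) * (j * j) * ((g⁻¹ : GL (Fin 2 ⊕ Fin 2) F) : M4 F) := by
          rw [hgi, mul_one]; simp only [mul_assoc]
      _ = -1 := by rw [hj, mul_neg, mul_one, neg_mul, hgi']
  generalize (g : M4 F) * j * ((g⁻¹ : GL (Fin 2 ⊕ Fin 2) F) : M4 F) = y at hyK hyy ⊢
  have hcomm : y * j = j * y := hK.comm y hyK j hjK
  have hprod : (y - j) * (y + j) = 0 := by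
    rw [sub_mul, mul_add, mul_add, hyy, hj, hcomm]
    abel
  by_cases h : y - j = 0
  · left
    exact sub_eq_zero.1 h
  · right
    obtain ⟨z, hzK, hz⟩ := hK.inv (y - j) (K.sub_mem hyK hjK) h
    have hz' : z * (y - j) = 1 := by rw [hK.comm z hzK _ (K.sub_mem hyK hjK)]; exact hz
    have : y + j = 0 := by
      calc y + j = (z * (y - j)) * (y + j) := by rw [hz', one_mul]
        _ = z * ((y - j) * (y + j)) := by rw [mul_assoc]
        _ = 0 := by rw [hprod, mul_zero]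
    exact eq_neg_of_add_eq_zero_left this

end Cfsg.Agent.Lib.Helper66.Q3
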