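import Cfsg.Agent.Lib.Helper66.Q3.Defs

set_option autoImplicit false
set_option linter.unusedSectionVars false
set_option linter.unusedVariables false

namespace Cfsg.Agent.Lib.Helper66.Q3
open Cfsg Cfsg.Geo
open scoped MatrixGroups Matrix
variable {F : Type*} [Field F]

theorem deta_three [Fintype F] (hq : Fintype.card F = 3) : (3 : F) = 0 := by
  have h := FiniteField.cast_card_eq_zero F
  rw [hq] at h
  exact_mod_cast h

theorem deta_elts [Fintype F] (hq : Fintype.card F = 3) (a : F) : a = 0 ∨ a = 1 ∨ a = -1 := by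
  have h := FiniteField.pow_card a
  rw [hq] at h
  have h' : a * ((a - 1) * (a + 1)) = 0 := by linear_combination h
  rcases mul_eq_zero.1 h' with h | h
  · left; exact h
  rcases mul_eq_zero.1 h with h | h
  · right; left; linear_combination h
  · right; right; linear_combination h

theorem deta_skew (h2 : (2 : F) ≠ 0) (P : Matrix (Fin 2) (Fin 2) F) (hP : Pᵀ = -P) :
    P = (P 0 1) • eps := by
  have h00 : P 0 0 = 0 := by
    have h := congrFun (congrFun hP 0) 0
    simp only [Matrix.transpose_apply, Matrix.neg_apply] at h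
    have : (2 : F) * P 0 0 = 0 := by linear_combination h
    exact (mul_eq_zero.1 this).resolve_left h2
  have h11 : P 1 1 = 0 := by
    have h := congrFun (congrFun hP 1) 1
    simp only [Matrix.transpose_apply, Matrix.neg_apply] at h
    have : (2 : F) * P 1 1 = 0 := by linear_combination h
    exact (mul_eq_zero.1 this).resolve_left h2
  have h10 : P 1 0 = -P 0 1 := by
    have h := congrFun (congrFun hP 0) 1
    simp only [Matrix.transpose_apply, Matrix.neg_apply] at h
    exact h
  ext i j
  fin_cases i <;> fin_cases j <;> simp [eps, h00, h11, h10]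

/-- DETA. -/
theorem det_anti [Fintype F] (hq : Fintype.card F = 3) (x : M4 F) (hs : IsSp x) (h1 : x * x = 1)
    (hc : x * Matrix.J (Fin 2) F = -(Matrix.J (Fin 2) F * x)) : ∃ i : Fin 6, x = XX i ∨ x = -XX i := by
  have h3 : (3 : F) = 0 := deta_three hq
  have h2 : (2 : F) ≠ 0 := by
    intro h
    have : (1 : F) = 0 := by linear_combination h3 - h
    exact one_ne_zero this
  have hJ2 : Matrix.J (Fin 2) F * Matrix.J (Fin 2) F = -1 := Matrix.J_squared _ _
  have ht : xᵀ * Matrix.J (Fin 2) F = Matrix.J (Fin 2) F * x := by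
    have h := congrArg (· * x) hs
    simp only [Matrix.mul_assoc, h1, Matrix.mul_one] at h
    exact h
  have ht2 : xᵀ = -x := by
    have h : xᵀ * Matrix.J (Fin 2) F * Matrix.J (Fin 2) F
        = Matrix.J (Fin 2) F * x * Matrix.J (Fin 2) F := by rw [ht]
    rw [Matrix.mul_assoc, hJ2, Matrix.mul_assoc, hc] at h
    rw [Matrix.mul_neg (Matrix.J (Fin 2) F), ← Matrix.mul_assoc, hJ2] at h
    simp only [Matrix.mul_neg, Matrix.mul_one, Matrix.neg_mul, Matrix.one_mul, neg_neg] at h
    exact neg_eq_iff_eq_neg.1 h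
  obtain ⟨P, Q, R, S, rfl⟩ : ∃ P Q R S, x = Matrix.fromBlocks P Q R S :=
    ⟨_, _, _, _, (Matrix.fromBlocks_toBlocks x).symm⟩
  rw [Matrix.fromBlocks_transpose, Matrix.fromBlocks_neg, Matrix.fromBlocks_inj] at ht2
  obtain ⟨hP, hRQ, hQR, hS⟩ := ht2
  rw [Matrix.J, Matrix.fromBlocks_multiply, Matrix.fromBlocks_multiply, Matrix.fromBlocks_neg,
    Matrix.fromBlocks_inj] at hc
  simp only [Matrix.mul_zero, Matrix.mul_one, zero_add, Matrix.mul_neg, add_zero, Matrix.zero_mul,
    Matrix.neg_mul, Matrix.one_mul, neg_neg] at hc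
  obtain ⟨hQ, hPS, hSP, hR⟩ := hc
  subst hQ
  subst hSP
  have hQ' : Qᵀ = -Q := hQR
  have hPe := deta_skew h2 P hP
  have hQe := deta_skew h2 Q hQ'
  generalize P 0 1 = p at hPe
  generalize Q 0 1 = q at hQe
  subst hPe
  subst hQe
  rw [Matrix.fromBlocks_multiply, ← Matrix.fromBlocks_one, Matrix.fromBlocks_inj] at h1
  have h00 := congrFun (congrFun h1.1 0) 0
  simp [eps, Matrix.mul_apply, Fin.sum_univ_two] at h00
  rcases deta_elts hq p with rfl | rfl | rfl <;> rcases deta_elts hq q with rfl | rfl | rfl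
  · exfalso; simp at h00
  · exfalso; apply h2; linear_combination -h00
  · exfalso; apply h2; linear_combination -h00
  · exfalso; apply h2; linear_combination -h00
  · exact ⟨4, Or.inl (by simp [XX])⟩
  · exact ⟨5, Or.inl (by simp [XX])⟩
  · exfalso; apply h2; linear_combination -h00
  · exact ⟨5, Or.inr (by simp [XX, Matrix.fromBlocks_neg])⟩
  · exact ⟨4, Or.inr (by simp [XX, Matrix.fromBlocks_neg])⟩

end Cfsg.Agent.Lib.Helper66.Q3
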