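import Cfsg.Agent.Lib.Helper66.Q3.Defs
import Cfsg.Agent.Lib.Helper66.ASP4.ADJ
import Cfsg.Agent.Lib.Helper66.ASP4.SYMP
import Cfsg.Agent.Lib.Helper66.ASP4.IDEC

set_option autoImplicit false
set_option linter.unusedSectionVars false
set_option linter.unusedVariables false

namespace Cfsg.Agent.Lib.Helper66.Q3
open Cfsg Cfsg.Geo Cfsg.Agent.Lib.Helper66.ASP4
open scoped MatrixGroups Matrix
variable {F : Type*} [Field F]

set_option synthInstance.maxSize 1000 in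
set_option synthInstance.maxHeartbeats 200000 in
theorem detc_z3 : ∀ a b d u : ZMod 3, a ^ 2 + b ^ 2 + u ^ 2 = 1 → b ^ 2 + d ^ 2 + u ^ 2 = 1 →
    b * (a + d) = 0 → u * (a + d) = 0 →
    (b = 0 ∧ u = 0 ∧ ((a = 1 ∧ d = 1) ∨ (a = -1 ∧ d = -1) ∨ (a = 1 ∧ d = -1) ∨ (a = -1 ∧ d = 1))) ∨
    (a = 0 ∧ d = 0 ∧ u = 0 ∧ (b = 1 ∨ b = -1)) ∨ (a = 0 ∧ d = 0 ∧ b = 0 ∧ (u = 1 ∨ u = -1)) := by
  decide +kernel

theorem detc_scalar [Fintype F] (hq : Fintype.card F = 3) (a b d u : F)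
    (h1 : a ^ 2 + b ^ 2 + u ^ 2 = 1) (h2 : b ^ 2 + d ^ 2 + u ^ 2 = 1)
    (h3 : b * (a + d) = 0) (h4 : u * (a + d) = 0) :
    (b = 0 ∧ u = 0 ∧ ((a = 1 ∧ d = 1) ∨ (a = -1 ∧ d = -1) ∨ (a = 1 ∧ d = -1) ∨ (a = -1 ∧ d = 1))) ∨
    (a = 0 ∧ d = 0 ∧ u = 0 ∧ (b = 1 ∨ b = -1)) ∨ (a = 0 ∧ d = 0 ∧ b = 0 ∧ (u = 1 ∨ u = -1)) := by
  let e : ZMod 3 ≃+* F := ZMod.ringEquivOfPrime F (by norm_num) hq
  obtain ⟨a, rfl⟩ := e.surjective a
  obtain ⟨b, rfl⟩ := e.surjective b
  obtain ⟨d, rfl⟩ := e.surjective d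
  obtain ⟨u, rfl⟩ := e.surjective u
  have k1 : a ^ 2 + b ^ 2 + u ^ 2 = 1 := e.injective (by simpa using h1)
  have k2 : b ^ 2 + d ^ 2 + u ^ 2 = 1 := e.injective (by simpa using h2)
  have k3 : b * (a + d) = 0 := e.injective (by simpa using h3)
  have k4 : u * (a + d) = 0 := e.injective (by simpa using h4)
  rcases detc_z3 a b d u k1 k2 k3 k4 with ⟨rfl, rfl, h⟩ | ⟨rfl, rfl, rfl, h⟩ | ⟨rfl, rfl, rfl, h⟩
  · left
    refine ⟨map_zero e, map_zero e, ?_⟩
    rcases h with ⟨rfl, rfl⟩ | ⟨rfl, rfl⟩ | ⟨rfl, rfl⟩ | ⟨rfl, rfl⟩ <;> simp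
  · right; left
    refine ⟨map_zero e, map_zero e, map_zero e, ?_⟩
    rcases h with rfl | rfl <;> simp
  · right; right
    refine ⟨map_zero e, map_zero e, map_zero e, ?_⟩
    rcases h with rfl | rfl <;> simp

theorem detc_two_ne [Fintype F] (hq : Fintype.card F = 3) : (2 : F) ≠ 0 := by
  have h3 : ((3 : ℕ) : F) = 0 := by rw [← hq]; exact FiniteField.cast_card_eq_zero F
  intro h2
  have : (1 : F) = 0 := by
    have h3' : (3 : F) = 0 := by exact_mod_cast h3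
    linear_combination h3' - h2
  exact one_ne_zero this

theorem det_comm [Fintype F] (hq : Fintype.card F = 3) (x : M4 F) (hs : IsSp x) (h1 : x * x = 1)
    (hc : x * Matrix.J (Fin 2) F = Matrix.J (Fin 2) F * x) : ∃ i : Fin 6, x = XX i ∨ x = -XX i := by
  have hJ2 : Matrix.J (Fin 2) F * Matrix.J (Fin 2) F = -1 := Matrix.J_squared _ _
  have e1 : xᵀ * x * Matrix.J (Fin 2) F = Matrix.J (Fin 2) F := by
    rw [mul_assoc, hc, ← mul_assoc]; exact hs
  have e2 : xᵀ * x = 1 := by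
    have h := congrArg (fun m => m * Matrix.J (Fin 2) F) e1
    simp only [mul_assoc, hJ2] at h
    have : -(xᵀ * x) = -1 := by simpa [mul_assoc] using h
    exact neg_injective this
  have e3 : xᵀ = x := by
    calc xᵀ = xᵀ * (x * x) := by rw [h1, mul_one]
      _ = (xᵀ * x) * x := by rw [mul_assoc]
      _ = x := by rw [e2, one_mul]
  obtain ⟨P, Q, R, S, rfl⟩ : ∃ P Q R S, x = Matrix.fromBlocks P Q R S :=
    ⟨_, _, _, _, (Matrix.fromBlocks_toBlocks x).symm⟩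
  rw [Matrix.J, Matrix.fromBlocks_multiply, Matrix.fromBlocks_multiply, Matrix.fromBlocks_inj] at hc
  simp only [mul_zero, mul_one, zero_add, mul_neg, add_zero, zero_mul, neg_mul, one_mul] at hc
  obtain ⟨hc1, hc2, hc3, hc4⟩ := hc
  rw [Matrix.fromBlocks_transpose, Matrix.fromBlocks_inj] at e3
  obtain ⟨t1, t2, t3, t4⟩ := e3
  rw [Matrix.fromBlocks_multiply, ← Matrix.fromBlocks_one, Matrix.fromBlocks_inj] at h1
  obtain ⟨m1, m2, m3, m4⟩ := h1
  have h2 := detc_two_ne hq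
  have hR : R = -Q := by rw [hc1, neg_neg]
  have hc3' : P = S := hc3.symm
  clear hc3 hc2
  subst hc3'
  rename_i P
  subst hR
  have p10 : P 1 0 = P 0 1 := congrFun (congrFun t1 0) 1
  have q : ∀ i k, Q k i = - Q i k := fun i k => congrFun (congrFun t3 i) k
  have qd : ∀ i, Q i i = 0 := by
    intro i
    have h := q i i
    have h' : (2 : F) * Q i i = 0 := by linear_combination h
    rcases mul_eq_zero.1 h' with h'' | h''
    · exact absurd h'' h2
    · exact h''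
  have q00 := qd 0
  have q11 := qd 1
  have q10 : Q 1 0 = - Q 0 1 := q 0 1
  have k1 := congrFun (congrFun m1 0) 0
  have k2 := congrFun (congrFun m1 1) 1
  have k3 := congrFun (congrFun m1 0) 1
  have k4 := congrFun (congrFun m2 0) 1
  simp only [Matrix.add_apply, Matrix.mul_apply, Fin.sum_univ_two, Matrix.neg_apply, p10, q00, q11,
    q10, Matrix.one_apply_eq, Matrix.zero_apply] at k1 k2 k3 k4
  rw [Matrix.one_apply_ne (by decide)] at k3
  have hP : P = !![P 0 0, P 0 1; P 0 1, P 1 1] := by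
    conv_lhs => rw [Matrix.eta_fin_two P, p10]
  have hQ : Q = !![0, Q 0 1; - Q 0 1, 0] := by
    conv_lhs => rw [Matrix.eta_fin_two Q, q00, q11, q10]
  have key := detc_scalar hq (P 0 0) (P 0 1) (P 1 1) (Q 0 1)
    (by linear_combination k1) (by linear_combination k2) (by linear_combination k3)
    (by linear_combination k4)
  rw [hP, hQ]
  generalize P 0 0 = a at key ⊢
  generalize P 0 1 = b at key ⊢
  generalize P 1 1 = d at key ⊢
  generalize Q 0 1 = u at key ⊢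
  rcases key with ⟨rfl, rfl, ⟨rfl, rfl⟩ | ⟨rfl, rfl⟩ | ⟨rfl, rfl⟩ | ⟨rfl, rfl⟩⟩ |
    ⟨rfl, rfl, rfl, rfl | rfl⟩ | ⟨rfl, rfl, rfl, rfl | rfl⟩
  · refine ⟨0, Or.inl ?_⟩
    ext i k; rcases i with i | i <;> rcases k with k | k <;> fin_cases i <;> fin_cases k <;>
      simp [XX, sz, sx, eps]
  · refine ⟨0, Or.inr ?_⟩
    ext i k; rcases i with i | i <;> rcases k with k | k <;> fin_cases i <;> fin_cases k <;>
      simp [XX, sz, sx, eps]
  · refine ⟨1, Or.inl ?_⟩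
    ext i k; rcases i with i | i <;> rcases k with k | k <;> fin_cases i <;> fin_cases k <;>
      simp [XX, sz, sx, eps]
  · refine ⟨1, Or.inr ?_⟩
    ext i k; rcases i with i | i <;> rcases k with k | k <;> fin_cases i <;> fin_cases k <;>
      simp [XX, sz, sx, eps]
  · refine ⟨2, Or.inl ?_⟩
    ext i k; rcases i with i | i <;> rcases k with k | k <;> fin_cases i <;> fin_cases k <;>
      simp [XX, sz, sx, eps]
  · refine ⟨2, Or.inr ?_⟩
    ext i k; rcases i with i | i <;> rcases k with k | k <;> fin_cases i <;> fin_cases k <;>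
      simp [XX, sz, sx, eps]
  · refine ⟨3, Or.inr ?_⟩
    ext i k; rcases i with i | i <;> rcases k with k | k <;> fin_cases i <;> fin_cases k <;>
      simp [XX, sz, sx, eps]
  · refine ⟨3, Or.inl ?_⟩
    ext i k; rcases i with i | i <;> rcases k with k | k <;> fin_cases i <;> fin_cases k <;>
      simp [XX, sz, sx, eps]

end Cfsg.Agent.Lib.Helper66.Q3
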