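import Cfsg.Agent.Lib.Helper66.Q3.Defs
import Cfsg.Agent.Lib.Helper66.ASP4.ADJ
import Cfsg.Agent.Lib.Helper66.ASP4.SYMP
import Cfsg.Agent.Lib.Helper66.Q3.FRAME

set_option autoImplicit false
set_option linter.unusedSectionVars false
set_option linter.unusedVariables false

namespace Cfsg.Agent.Lib.Helper66.Q3
open Cfsg Cfsg.Geo Cfsg.Agent.Lib.Helper66.ASP4
open scoped MatrixGroups Matrix
variable {F : Type*} [Field F]

/-- `x ↦ f x ξ` as a linear map. -/
def dualL (ξ : V4 F) : V4 F →ₗ[F] F where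
  toFun := fun x => sympForm 2 F x ξ
  map_add' := fun x y => (symp_isSymplectic 2).bilinear.add_left x y ξ
  map_smul' := fun c x => (symp_isSymplectic 2).bilinear.smul_left c x ξ

/-- `ξ ↦ f x ξ` as a linear map. -/
def dualR (x : V4 F) : V4 F →ₗ[F] F where
  toFun := fun ξ => sympForm 2 F x ξ
  map_add' := fun a b => (symp_isSymplectic 2).bilinear.add_right x a b
  map_smul' := fun c a => (symp_isSymplectic 2).bilinear.smul_right c x a

/-- DUAL. -/
theorem exists_dual (D : Fin 2 → Submodule F (V4 F)) (hD : IsMDecomposition 2 D)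
    (hts : ∀ i, IsTotallySingularFor (sympForm 2 F) (D i)) :
    ∃ P : GL (Fin 2 ⊕ Fin 2) F, P ∈ spGL 2 F ∧ (∀ i : Fin 2, (P : M4 F) *ᵥ Pi.single (Sum.inl i) 1 ∈ D 0) ∧
      (∀ i : Fin 2, (P : M4 F) *ᵥ Pi.single (Sum.inr i) 1 ∈ D 1) := by
  classical
  have b : Module.Basis (Fin 2) F (D 0) := Module.finBasisOfFinrankEq F (D 0) (hD.finrank_eq 0)
  obtain ⟨Φ, hΦ⟩ : ∃ Φ : D 1 →ₗ[F] (Fin 2 → F), ∀ ξ i, Φ ξ i = sympForm 2 F (b i : V4 F) ξ :=
    ⟨LinearMap.pi (fun i => (dualR (b i : V4 F)) ∘ₗ (D 1).subtype), fun ξ i => rfl⟩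
  have hinj : Function.Injective Φ := by
    rw [← LinearMap.ker_eq_bot, LinearMap.ker_eq_bot']
    intro ξ hξ
    have h0 : ∀ i, sympForm 2 F (b i : V4 F) ξ = 0 := by
      intro i; rw [← hΦ, hξ]; rfl
    have hz : (dualL (ξ : V4 F)) ∘ₗ (D 0).subtype = 0 := by
      apply b.ext
      intro i
      exact h0 i
    have hle : iSup D ≤ LinearMap.ker (dualL (ξ : V4 F)) := by
      apply iSup_le
      intro i
      fin_cases i
      · intro x hx
        rw [LinearMap.mem_ker]
        exact LinearMap.congr_fun hz ⟨x, hx⟩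
      · intro x hx
        rw [LinearMap.mem_ker]
        exact hts 1 x hx ξ ξ.2
    rw [hD.iSup_eq_top] at hle
    by_contra hne
    have hne' : (ξ : V4 F) ≠ 0 := fun h => hne (Subtype.ext h)
    obtain ⟨⟨x, hx⟩, _⟩ := (symp_isSymplectic (F := F) 2).nondegenerate (ξ : V4 F) hne'
    exact hx (LinearMap.mem_ker.mp (hle (Submodule.mem_top (x := x))))
  have hsurj : Function.Surjective Φ := by
    refine (LinearMap.injective_iff_surjective_of_finrank_eq_finrank ?_).mp hinj
    rw [hD.finrank_eq 1, Module.finrank_fin_fun]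
  choose φ hφ using fun k : Fin 2 => hsurj (-Pi.single k 1)
  have hbφ : ∀ i k, sympForm 2 F (b i : V4 F) (φ k : V4 F) = -(if i = k then 1 else 0) := by
    intro i k
    rw [← hΦ, hφ, Pi.neg_apply, Pi.single_apply]
  obtain ⟨P, hP, hPy⟩ := frame_mem (F := F)
    (Sum.elim (fun i => (b i : V4 F)) (fun k => (φ k : V4 F))) (by
      intro i k
      rcases i with i | i <;> rcases k with k | k
      · simp only [Sum.elim_inl, Matrix.J, Matrix.fromBlocks_apply₁₁, Matrix.zero_apply]
        exact hts 0 _ (b i).2 _ (b k).2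
      · simp only [Sum.elim_inl, Sum.elim_inr, Matrix.J, Matrix.fromBlocks_apply₁₂,
          Matrix.neg_apply, Matrix.one_apply]
        exact hbφ i k
      · simp only [Sum.elim_inl, Sum.elim_inr, Matrix.J, Matrix.fromBlocks_apply₂₁,
          Matrix.one_apply]
        rw [symp_skew, hbφ k i, neg_neg]
        simp only [eq_comm]
      · simp only [Sum.elim_inr, Matrix.J, Matrix.fromBlocks_apply₂₂, Matrix.zero_apply]
        exact hts 1 _ (φ i).2 _ (φ k).2)
  refine ⟨P, hP, fun i => ?_, fun i => ?_⟩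
  · rw [hPy]; exact (b i).2
  · rw [hPy]; exact (φ i).2

end Cfsg.Agent.Lib.Helper66.Q3
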