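import Mathlib
import Cfsg.Prelude.Def_GeometricClasses
import Cfsg.Agent.Lib.Helper66.ASP4.Defs
/-! Ladder Q3: the two exceptional cases of Aschbacher's theorem for Sp_4(3) (definitions). -/
set_option autoImplicit false
namespace Cfsg.Agent.Lib.Helper66.Q3
open Cfsg Cfsg.Geo
open scoped MatrixGroups Matrix
variable {F : Type*} [Field F]

/-- 4 x 4 matrices, indexed as for `sympForm 2 F`. -/
abbrev M4 (F : Type*) := Matrix (Fin 2 ⊕ Fin 2) (Fin 2 ⊕ Fin 2) F
/-- the natural module. -/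
abbrev V4 (F : Type*) := Fin 2 ⊕ Fin 2 → F

/-- `x` is a symplectic matrix. -/
def IsSp (x : M4 F) : Prop := xᵀ * Matrix.J (Fin 2) F * x = Matrix.J (Fin 2) F

/-- the symplectic matrices of square `1` that commute or anticommute with `j`. -/
def InvSet (j : M4 F) : Set (M4 F) :=
  {x | IsSp x ∧ x * x = 1 ∧ (x * j = j * x ∨ x * j = -(j * x))}

/-- 2 x 2 blocks. -/
def eps : Matrix (Fin 2) (Fin 2) F := !![0, 1; -1, 0]
def sz : Matrix (Fin 2) (Fin 2) F := !![1, 0; 0, -1]
def sx : Matrix (Fin 2) (Fin 2) F := !![0, 1; 1, 0]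
def e11 : Matrix (Fin 2) (Fin 2) F := !![1, 0; 0, 0]

/-- the identity and the five involutions (up to sign) of `InvSet J` over the field with 3 elements. -/
def XX : Fin 6 → M4 F :=
  ![1, Matrix.fromBlocks sz 0 0 sz, Matrix.fromBlocks sx 0 0 sx, Matrix.fromBlocks 0 (-eps) eps 0,
    Matrix.fromBlocks eps eps eps (-eps), Matrix.fromBlocks eps (-eps) (-eps) (-eps)]

/-- an element of order 3 of `Sp_4(3)` permuting the `± XX i` but not normalising `⟨J⟩`. -/
def tM : M4 F := Matrix.fromBlocks 0 eps (-eps) eps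
/-- its inverse. -/
def tI : M4 F := Matrix.fromBlocks (-eps) eps (-eps) 0
/-- a transvection. -/
def sM : M4 F := Matrix.fromBlocks 1 e11 0 1
/-- its inverse. -/
def sI : M4 F := Matrix.fromBlocks 1 (-e11) 0 1

end Cfsg.Agent.Lib.Helper66.Q3
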