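import Cfsg.Agent.Lib.Helper66.Q3.Defs
import Cfsg.Agent.Lib.Helper66.ASP4.ADJ
import Cfsg.Agent.Lib.Helper66.ASP4.SYMP

set_option autoImplicit false
set_option linter.unusedSectionVars false
set_option linter.unusedVariables false

namespace Cfsg.Agent.Lib.Helper66.Q3
open Cfsg Cfsg.Geo Cfsg.Agent.Lib.Helper66.ASP4
open scoped MatrixGroups Matrix
variable {F : Type*} [Field F]

theorem exj_cases [Fintype F] (hq : Fintype.card F = 3) (a : F) : a = 0 ∨ a = 1 ∨ a = -1 := by
  have h := FiniteField.pow_card a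
  rw [hq] at h
  have h1 : a * ((a - 1) * (a + 1)) = 0 := by linear_combination h
  rcases mul_eq_zero.mp h1 with h | h
  · exact Or.inl h
  rcases mul_eq_zero.mp h with h | h
  · exact Or.inr (Or.inl (sub_eq_zero.mp h))
  · exact Or.inr (Or.inr (eq_neg_of_add_eq_zero_left h))

theorem exj_two [Fintype F] (hq : Fintype.card F = 3) : (2 : F) ≠ 0 := by
  have h3 := FiniteField.cast_card_eq_zero F
  rw [hq] at h3
  have h3' : (3 : F) = 0 := by exact_mod_cast h3
  intro h
  have : (1 : F) = 0 := by linear_combination h3' - h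
  exact one_ne_zero this

theorem exj_adj_neg (a : M4 F) : adjM 2 (-a) = - adjM 2 a := by
  rw [← neg_one_smul F a, adj_smul, neg_one_smul]

theorem exj_adj_sub (a b : M4 F) : adjM 2 (a - b) = adjM 2 a - adjM 2 b := by
  rw [sub_eq_add_neg, adj_add, exj_adj_neg, ← sub_eq_add_neg]

/-- EXJ. -/
theorem exists_j [Fintype F] (hq : Fintype.card F = 3) (K : Subalgebra F (M4 F)) (hK : IsFieldSubalgebra 2 K)
    (hadj : IsAdjointClosedFor (sympForm 2 F) K) (hns : ¬ IsSelfAdjointFor (sympForm 2 F) K) :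
    ∃ j ∈ K, adjM 2 j = -j ∧ j * j = -1 := by
  have h2 : (2 : F) ≠ 0 := exj_two hq
  have htwo : ∀ x : M4 F, x = -x → x = 0 := by
    intro x hx
    have : (2 : F) • x = 0 := by
      rw [two_smul]
      nth_rewrite 2 [hx]
      exact add_neg_cancel x
    exact (smul_eq_zero.mp this).resolve_left h2
  unfold IsSelfAdjointFor at hns
  push Not at hns
  obtain ⟨k, hk, u, v, huv⟩ := hns
  obtain ⟨k', hk', hkk'⟩ := hadj k hk
  have hk'eq : k' = adjM 2 k := adj_unique 2 k k' hkk'
  have hne : k' ≠ k := by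
    intro h
    apply huv
    rw [hkk' u v, h]
  obtain ⟨j, hjdef⟩ : ∃ j : M4 F, j = k - adjM 2 k := ⟨_, rfl⟩
  have hjK : j ∈ K := by rw [hjdef, ← hk'eq]; exact K.sub_mem hk hk'
  have hj0 : j ≠ 0 := by
    intro h
    rw [hjdef, ← hk'eq] at h
    exact hne (sub_eq_zero.mp h).symm
  have hja : adjM 2 j = -j := by
    rw [hjdef, exj_adj_sub, adj_adj, neg_sub]
  have hjja : adjM 2 (j * j) = j * j := by
    rw [adj_mul, hja, neg_mul_neg]
  -- linear dependence of `1, j, j * j` in `K`
  have hdep : ¬ LinearIndependent F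
      (![⟨1, K.one_mem⟩, ⟨j, hjK⟩, ⟨j * j, K.mul_mem hjK hjK⟩] : Fin 3 → K) := by
    intro hli
    have := hli.fintype_card_le_finrank
    rw [hK.finrank_eq, Fintype.card_fin] at this
    omega
  rw [Fintype.not_linearIndependent_iff] at hdep
  obtain ⟨g, hg, hgne⟩ := hdep
  have hg' : g 0 • (1 : M4 F) + g 1 • j + g 2 • (j * j) = 0 := by
    have := congrArg Subtype.val hg
    rw [Fin.sum_univ_three] at this
    simpa using this
  have hg'' : g 0 • (1 : M4 F) + g 1 • (-j) + g 2 • (j * j) = 0 := by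
    have := congrArg (adjM 2) hg'
    rw [adj_add, adj_add, adj_smul, adj_smul, adj_smul, adj_one, hja, hjja] at this
    rw [this]
    unfold adjM
    simp
  have hg1 : g 1 = 0 := by
    have h : g 1 • j = -(g 1 • j) := by
      have e : g 1 • j - g 1 • (-j) = 0 := by
        have := sub_eq_zero.mpr (hg'.trans hg''.symm)
        rw [← this]; abel
      rw [smul_neg] at e
      exact sub_eq_zero.mp e
    exact (smul_eq_zero.mp (htwo _ h)).resolve_right hj0
  rw [hg1, zero_smul, add_zero] at hg'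
  have h1ne : (1 : M4 F) ≠ 0 := one_ne_zero
  have hg2 : g 2 ≠ 0 := by
    intro h
    rw [h, zero_smul, add_zero] at hg'
    have hg0 : g 0 = 0 := (smul_eq_zero.mp hg').resolve_right h1ne
    obtain ⟨i, hi⟩ := hgne
    fin_cases i
    · exact hi hg0
    · exact hi hg1
    · exact hi h
  obtain ⟨α, hα⟩ : ∃ α : F, j * j = α • (1 : M4 F) := by
    refine ⟨-(g 2)⁻¹ * g 0, ?_⟩
    have h : g 2 • (j * j) = -(g 0 • (1 : M4 F)) := eq_neg_of_add_eq_zero_right hg'
    calc j * j = (g 2)⁻¹ • (g 2 • (j * j)) := by rw [smul_smul, inv_mul_cancel₀ hg2, one_smul]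
      _ = _ := by rw [h, smul_neg, smul_smul, neg_mul, neg_smul]
  obtain ⟨y, hyK, hy⟩ := hK.inv j hjK hj0
  have hzero : ∀ a ∈ K, ∀ b : M4 F, a * b = 0 → a ≠ 0 → b = 0 := by
    intro a ha b hab ha0
    obtain ⟨a', ha'K, ha'⟩ := hK.inv a ha ha0
    have hc : a' * a = 1 := by rw [hK.comm a' ha'K a ha, ha']
    calc b = (a' * a) * b := by rw [hc, one_mul]
      _ = a' * (a * b) := by rw [mul_assoc]
      _ = 0 := by rw [hab, mul_zero]
  rcases exj_cases hq α with h | h | h
  · exfalso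
    rw [h, zero_smul] at hα
    exact hj0 (hzero j hjK j hα hj0)
  · exfalso
    rw [h, one_smul] at hα
    have hprod : (j - 1) * (j + 1) = 0 := by
      rw [sub_mul, mul_add, mul_one, one_mul, hα]; abel
    by_cases hj1 : j - 1 = 0
    · have hj1' : j = 1 := sub_eq_zero.mp hj1
      rw [hj1', adj_one] at hja
      exact h1ne (htwo _ hja)
    · have := hzero (j - 1) (K.sub_mem hjK K.one_mem) (j + 1) hprod hj1
      have hj1' : j = -1 := eq_neg_of_add_eq_zero_left this
      rw [hj1', exj_adj_neg, adj_one, neg_neg] at hja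
      exact h1ne (htwo _ hja.symm)
  · exact ⟨j, hjK, hja, by rw [hα, h, neg_one_smul]⟩

end Cfsg.Agent.Lib.Helper66.Q3
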