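import Cfsg.Agent.Lib.Helper66.Q3.Defs
import Cfsg.Agent.Lib.Helper66.ASP4.ADJ
import Cfsg.Agent.Lib.Helper66.ASP4.SYMP
import Cfsg.Agent.Lib.Helper66.ASP4.IDEC

set_option autoImplicit false
set_option linter.unusedSectionVars false
set_option linter.unusedVariables false

namespace Cfsg.Agent.Lib.Helper66.Q3
open Cfsg Cfsg.Geo Cfsg.Agent.Lib.Helper66.ASP4
open scoped MatrixGroups Matrix
variable {F : Type*} [Field F]

/-- OUT2A. -/
theorem out2_of_invol (h2 : (2 : F) ≠ 0) (L : Subgroup (GL (Fin 2 ⊕ Fin 2) F)) (hL : L ≤ spGL 2 F)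
    (a : M4 F) (ha : a * a = 1) (hadj : adjM 2 a = a) (h1 : a ≠ 1) (h1' : a ≠ -1)
    (hc : ∀ g ∈ L, (g : M4 F) * a * ((g⁻¹ : GL (Fin 2 ⊕ Fin 2) F) : M4 F) = a ∨
      (g : M4 F) * a * ((g⁻¹ : GL (Fin 2 ⊕ Fin 2) F) : M4 F) = -a) : Out2 L := by
  have hsq : (1 + a) * (1 + a) = (2 : F) • (1 + a) := by
    rw [add_mul, mul_add, mul_add, ha, one_mul, mul_one, one_mul, two_smul]
    abel
  have hinj : ∀ x y : M4 F, (2 : F)⁻¹ • x = (2 : F)⁻¹ • y → x = y := by
    intro x y h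
    have := congrArg (fun z => (2 : F) • z) h
    simpa [smul_smul, h2] using this
  apply out2_of_idem L hL ((2 : F)⁻¹ • (1 + a))
  · rw [smul_mul_smul_comm, hsq, smul_smul, mul_assoc, inv_mul_cancel₀ h2, mul_one]
  · intro h
    apply h1'
    have h3 : (1 : M4 F) + a = 0 := hinj _ _ (by rw [h, smul_zero])
    exact eq_neg_of_add_eq_zero_right h3
  · intro h
    apply h1
    have h3 : (1 : M4 F) + a = (2 : F) • 1 := hinj _ _ (by rw [h, smul_smul, inv_mul_cancel₀ h2, one_smul])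
    rw [two_smul] at h3
    exact add_left_cancel h3
  · rw [adj_smul, adj_add, adj_one, hadj]
  · intro g hg
    have hgg : (g : M4 F) * ((g⁻¹ : GL (Fin 2 ⊕ Fin 2) F) : M4 F) = 1 := by
      rw [← Units.val_mul, mul_inv_cancel, Units.val_one]
    have hconj : (g : M4 F) * ((2 : F)⁻¹ • (1 + a)) * ((g⁻¹ : GL (Fin 2 ⊕ Fin 2) F) : M4 F) =
        (2 : F)⁻¹ • (1 + (g : M4 F) * a * ((g⁻¹ : GL (Fin 2 ⊕ Fin 2) F) : M4 F)) := by
      rw [mul_smul_comm, smul_mul_assoc, mul_add, add_mul, mul_one, hgg]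
    rw [hconj]
    rcases hc g hg with h | h
    · rw [h]
    · rw [h, smul_mul_smul_comm, smul_mul_smul_comm]
      congr 1
      rw [add_mul, mul_add, mul_add, add_mul, mul_add, mul_add]
      simp only [one_mul, mul_one, mul_neg, neg_mul]
      abel

end Cfsg.Agent.Lib.Helper66.Q3
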