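import Cfsg.Agent.Lib.Helper66.Q3.SPM

set_option autoImplicit false
set_option linter.unusedSectionVars false
set_option linter.unusedVariables false

namespace Cfsg.Agent.Lib.Helper66.Q3
open Cfsg Cfsg.Geo Cfsg.Agent.Lib.Helper66.ASP4
open scoped MatrixGroups Matrix
variable {F : Type*} [Field F]

theorem stabn_isSp_mul {a b : M4 F} (ha : IsSp a) (hb : IsSp b) : IsSp (a * b) := by
  unfold IsSp at *
  calc (a * b)ᵀ * Matrix.J (Fin 2) F * (a * b) = bᵀ * (aᵀ * Matrix.J (Fin 2) F * a) * b := by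
        rw [Matrix.transpose_mul]; simp only [mul_assoc]
    _ = Matrix.J (Fin 2) F := by rw [ha, hb]

theorem stabn_fwd (j : M4 F) (g : GL (Fin 2 ⊕ Fin 2) F) (hg : g ∈ spGL 2 F)
    (h : (g : M4 F) * j * ((g⁻¹ : GL (Fin 2 ⊕ Fin 2) F) : M4 F) = j ∨
      (g : M4 F) * j * ((g⁻¹ : GL (Fin 2 ⊕ Fin 2) F) : M4 F) = -j) (x : M4 F) (hx : x ∈ InvSet j) :
    (g : M4 F) * x * ((g⁻¹ : GL (Fin 2 ⊕ Fin 2) F) : M4 F) ∈ InvSet j := by
  have hG : IsSp (g : M4 F) := (mem_spGL_iff g).1 hg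
  have hG' : IsSp ((g⁻¹ : GL (Fin 2 ⊕ Fin 2) F) : M4 F) := (mem_spGL_iff g⁻¹).1 (inv_mem hg)
  have hgi : ((g⁻¹ : GL (Fin 2 ⊕ Fin 2) F) : M4 F) * (g : M4 F) = 1 := by
    rw [← Units.val_mul, inv_mul_cancel, Units.val_one]
  have hgi' : (g : M4 F) * ((g⁻¹ : GL (Fin 2 ⊕ Fin 2) F) : M4 F) = 1 := by
    rw [← Units.val_mul, mul_inv_cancel, Units.val_one]
  generalize ((g⁻¹ : GL (Fin 2 ⊕ Fin 2) F) : M4 F) = G' at *
  generalize (g : M4 F) = G at *
  have hm : ∀ a b : M4 F, (G * a * G') * (G * b * G') = G * (a * b) * G' := by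
    intro a b
    calc (G * a * G') * (G * b * G') = G * a * (G' * G) * b * G' := by simp only [mul_assoc]
      _ = G * (a * b) * G' := by rw [hgi, mul_one]; simp only [mul_assoc]
  obtain ⟨hx1, hx2, hx3⟩ := hx
  refine ⟨stabn_isSp_mul (stabn_isSp_mul hG hx1) hG', ?_, ?_⟩
  · rw [hm, hx2, mul_one, hgi']
  · have e1 : (G * x * G') * (G * j * G') = G * (x * j) * G' := hm x j
    have e2 : (G * j * G') * (G * x * G') = G * (j * x) * G' := hm j x
    rcases hx3 with h3 | h3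
    · left
      have e : (G * x * G') * (G * j * G') = (G * j * G') * (G * x * G') := by rw [e1, e2, h3]
      rcases h with h | h
      · rwa [h] at e
      · rw [h, mul_neg, neg_mul] at e
        exact neg_injective e
    · right
      have e : (G * x * G') * (G * j * G') = -((G * j * G') * (G * x * G')) := by
        rw [e1, e2, h3, mul_neg, neg_mul]
      rcases h with h | h
      · rwa [h] at e
      · rw [h, mul_neg, neg_mul] at e
        exact neg_injective e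

/-- STABN. -/
theorem stab_of_conj (j : M4 F) (g : GL (Fin 2 ⊕ Fin 2) F) (hg : g ∈ spGL 2 F)
    (h : (g : M4 F) * j * ((g⁻¹ : GL (Fin 2 ⊕ Fin 2) F) : M4 F) = j ∨
      (g : M4 F) * j * ((g⁻¹ : GL (Fin 2 ⊕ Fin 2) F) : M4 F) = -j) (x : M4 F) :
    x ∈ InvSet j ↔ (g : M4 F) * x * ((g⁻¹ : GL (Fin 2 ⊕ Fin 2) F) : M4 F) ∈ InvSet j := by
  have hgi : ((g⁻¹ : GL (Fin 2 ⊕ Fin 2) F) : M4 F) * (g : M4 F) = 1 := by
    rw [← Units.val_mul, inv_mul_cancel, Units.val_one]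
  have hback : ∀ a : M4 F, ((g⁻¹ : GL (Fin 2 ⊕ Fin 2) F) : M4 F) *
      ((g : M4 F) * a * ((g⁻¹ : GL (Fin 2 ⊕ Fin 2) F) : M4 F)) * (g : M4 F) = a := by
    intro a
    calc ((g⁻¹ : GL (Fin 2 ⊕ Fin 2) F) : M4 F) *
        ((g : M4 F) * a * ((g⁻¹ : GL (Fin 2 ⊕ Fin 2) F) : M4 F)) * (g : M4 F)
        = (((g⁻¹ : GL (Fin 2 ⊕ Fin 2) F) : M4 F) * (g : M4 F)) * a *
            (((g⁻¹ : GL (Fin 2 ⊕ Fin 2) F) : M4 F) * (g : M4 F)) := by simp only [mul_assoc]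
      _ = a := by rw [hgi, one_mul, mul_one]
  constructor
  · exact stabn_fwd j g hg h x
  · intro hx
    have h' : ((g⁻¹ : GL (Fin 2 ⊕ Fin 2) F) : M4 F) * j * (((g⁻¹)⁻¹ : GL (Fin 2 ⊕ Fin 2) F) : M4 F) = j ∨
        ((g⁻¹ : GL (Fin 2 ⊕ Fin 2) F) : M4 F) * j * (((g⁻¹)⁻¹ : GL (Fin 2 ⊕ Fin 2) F) : M4 F) = -j := by
      rw [inv_inv]
      have hb := hback j
      rcases h with h | h
      · left
        rwa [h] at hb
      · right
        rw [h, mul_neg, neg_mul] at hb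
        exact neg_eq_iff_eq_neg.1 hb
    have := stabn_fwd j g⁻¹ (inv_mem hg) h' _ hx
    rwa [inv_inv, hback] at this

end Cfsg.Agent.Lib.Helper66.Q3
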