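import Cfsg.Agent.Lib.Helper66.Q3.Defs
import Cfsg.Agent.Lib.Helper66.ASP4.ADJ
import Cfsg.Agent.Lib.Helper66.ASP4.SYMP
import Cfsg.Agent.Lib.Helper66.ASP4.IDEC
import Cfsg.Agent.Lib.Helper66.Q3.SPM

set_option autoImplicit false
set_option linter.unusedSectionVars false
set_option linter.unusedVariables false

namespace Cfsg.Agent.Lib.Helper66.Q3
open Cfsg Cfsg.Geo Cfsg.Agent.Lib.Helper66.ASP4
open scoped MatrixGroups Matrix
variable {F : Type*} [Field F]

theorem trans_isSp_mul {a b : M4 F} (ha : IsSp a) (hb : IsSp b) : IsSp (a * b) := by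
  unfold IsSp at *
  rw [Matrix.transpose_mul]
  calc bᵀ * aᵀ * Matrix.J (Fin 2) F * (a * b) = bᵀ * (aᵀ * Matrix.J (Fin 2) F * a) * b := by
        simp only [mul_assoc]
    _ = Matrix.J (Fin 2) F := by rw [ha, hb]

/-- TRANS. -/
theorem invSet_conj (j : M4 F) (P : GL (Fin 2 ⊕ Fin 2) F) (hP : P ∈ spGL 2 F)
    (hjP : j * (P : M4 F) = (P : M4 F) * Matrix.J (Fin 2) F) (x : M4 F) :
    x ∈ InvSet j ↔ ((P⁻¹ : GL (Fin 2 ⊕ Fin 2) F) : M4 F) * x * (P : M4 F) ∈ InvSet (Matrix.J (Fin 2) F) := by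
  have hpSp : IsSp (P : M4 F) := (mem_spGL_iff P).1 hP
  have hpiSp : IsSp ((P⁻¹ : GL (Fin 2 ⊕ Fin 2) F) : M4 F) := (mem_spGL_iff P⁻¹).1 (inv_mem hP)
  have hppi : (P : M4 F) * ((P⁻¹ : GL (Fin 2 ⊕ Fin 2) F) : M4 F) = 1 := by
    rw [← Units.val_mul, mul_inv_cancel, Units.val_one]
  have hpip : ((P⁻¹ : GL (Fin 2 ⊕ Fin 2) F) : M4 F) * (P : M4 F) = 1 := by
    rw [← Units.val_mul, inv_mul_cancel, Units.val_one]
  obtain ⟨p, hp⟩ : ∃ p : M4 F, p = (P : M4 F) := ⟨_, rfl⟩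
  obtain ⟨q, hq⟩ : ∃ q : M4 F, q = ((P⁻¹ : GL (Fin 2 ⊕ Fin 2) F) : M4 F) := ⟨_, rfl⟩
  rw [← hp] at hpSp hppi hpip hjP ⊢
  rw [← hq] at hpiSp hppi hpip ⊢
  have hc_mul : ∀ z w : M4 F, q * (z * w) * p = (q * z * p) * (q * w * p) := by
    intro z w
    calc q * (z * w) * p = q * z * 1 * (w * p) := by simp only [mul_assoc, one_mul]
      _ = q * z * (p * q) * (w * p) := by rw [hppi]
      _ = (q * z * p) * (q * w * p) := by simp only [mul_assoc]
  have hback : ∀ z : M4 F, p * (q * z * p) * q = z := by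
    intro z
    calc p * (q * z * p) * q = (p * q) * z * (p * q) := by simp only [mul_assoc]
      _ = z := by rw [hppi, one_mul, mul_one]
  have hc_inj : ∀ z w : M4 F, q * z * p = q * w * p → z = w := by
    intro z w h
    rw [← hback z, h, hback]
  have hcj : q * j * p = Matrix.J (Fin 2) F := by
    rw [mul_assoc, hjP, ← mul_assoc, hpip, one_mul]
  constructor
  · rintro ⟨hs, h1, hcomm⟩
    refine ⟨trans_isSp_mul (trans_isSp_mul hpiSp hs) hpSp, ?_, ?_⟩
    · rw [← hc_mul, h1, mul_one, hpip]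
    · rcases hcomm with h | h
      · left
        rw [← hcj, ← hc_mul, ← hc_mul, h]
      · right
        rw [← hcj, ← hc_mul, ← hc_mul, h, mul_neg, neg_mul]
  · rintro ⟨hs, h1, hcomm⟩
    refine ⟨?_, ?_, ?_⟩
    · have := trans_isSp_mul (trans_isSp_mul hpSp hs) hpiSp
      rwa [hback] at this
    · apply hc_inj
      rw [hc_mul, h1, mul_one, hpip]
    · rcases hcomm with h | h
      · left
        apply hc_inj
        rw [hc_mul, hc_mul, hcj]
        exact h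
      · right
        apply hc_inj
        rw [mul_neg, neg_mul, hc_mul, hc_mul, hcj]
        exact h

end Cfsg.Agent.Lib.Helper66.Q3
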