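import Cfsg.Agent.Lib.Helper66.Q3.Defs

set_option autoImplicit false
set_option linter.unusedSectionVars false
set_option linter.unusedVariables false
set_option linter.unusedSimpArgs false
set_option linter.unreachableTactic false
set_option linter.unusedTactic false
set_option maxHeartbeats 1000000

namespace Cfsg.Agent.Lib.Helper66.Q3
open Cfsg Cfsg.Geo
open scoped MatrixGroups Matrix
variable {F : Type*} [Field F]

theorem ttab_inv1 : (tM : M4 F) * tI = 1 := by
  ext i j
  rcases i with i | i <;> rcases j with j | j <;> fin_cases i <;> fin_cases j <;>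
    simp [tM, tI, XX, eps, sz, sx, Matrix.J, Matrix.mul_apply, Fintype.sum_sum_type, Fin.sum_univ_two,
      Matrix.fromBlocks, Matrix.transpose_apply, Matrix.one_apply, Matrix.neg_apply] <;>
    ring

theorem ttab_inv2 : (tI : M4 F) * tM = 1 := by
  ext i j
  rcases i with i | i <;> rcases j with j | j <;> fin_cases i <;> fin_cases j <;>
    simp [tM, tI, XX, eps, sz, sx, Matrix.J, Matrix.mul_apply, Fintype.sum_sum_type, Fin.sum_univ_two,
      Matrix.fromBlocks, Matrix.transpose_apply, Matrix.one_apply, Matrix.neg_apply] <;>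
    ring

/-- TTAB. -/
theorem t_inv : (tM : M4 F) * tI = 1 ∧ (tI : M4 F) * tM = 1 := ⟨ttab_inv1, ttab_inv2⟩

/-- TTAB. -/
theorem t_sp (h3 : (3 : F) = 0) : IsSp (tM : M4 F) := by
  unfold IsSp
  ext i j
  rcases i with i | i <;> rcases j with j | j <;> fin_cases i <;> fin_cases j <;>
    simp [tM, tI, XX, eps, sz, sx, Matrix.J, Matrix.mul_apply, Fintype.sum_sum_type, Fin.sum_univ_two,
      Matrix.fromBlocks, Matrix.transpose_apply, Matrix.one_apply, Matrix.neg_apply] <;>
    first
      | linear_combination h3
      | linear_combination -h3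
      | linear_combination (2 : F) * h3
      | linear_combination (-2 : F) * h3

theorem ttab_f0 (h3 : (3 : F) = 0) : (tM : M4 F) * XX 0 * tI = XX 0 := by
  ext i j
  rcases i with i | i <;> rcases j with j | j <;> fin_cases i <;> fin_cases j <;>
    simp [tM, tI, XX, eps, sz, sx, Matrix.J, Matrix.mul_apply, Fintype.sum_sum_type, Fin.sum_univ_two,
      Matrix.fromBlocks, Matrix.transpose_apply, Matrix.one_apply, Matrix.neg_apply] <;>
    first
      | linear_combination h3
      | linear_combination -h3
      | linear_combination (2 : F) * h3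
      | linear_combination (-2 : F) * h3

theorem ttab_f1 (h3 : (3 : F) = 0) : (tM : M4 F) * XX 1 * tI = -XX 1 := by
  ext i j
  rcases i with i | i <;> rcases j with j | j <;> fin_cases i <;> fin_cases j <;>
    simp [tM, tI, XX, eps, sz, sx, Matrix.J, Matrix.mul_apply, Fintype.sum_sum_type, Fin.sum_univ_two,
      Matrix.fromBlocks, Matrix.transpose_apply, Matrix.one_apply, Matrix.neg_apply] <;>
    first
      | linear_combination h3
      | linear_combination -h3
      | linear_combination (2 : F) * h3
      | linear_combination (-2 : F) * h3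

theorem ttab_f2 (h3 : (3 : F) = 0) : (tM : M4 F) * XX 2 * tI = -XX 2 := by
  ext i j
  rcases i with i | i <;> rcases j with j | j <;> fin_cases i <;> fin_cases j <;>
    simp [tM, tI, XX, eps, sz, sx, Matrix.J, Matrix.mul_apply, Fintype.sum_sum_type, Fin.sum_univ_two,
      Matrix.fromBlocks, Matrix.transpose_apply, Matrix.one_apply, Matrix.neg_apply] <;>
    first
      | linear_combination h3
      | linear_combination -h3
      | linear_combination (2 : F) * h3
      | linear_combination (-2 : F) * h3

theorem ttab_f3 (h3 : (3 : F) = 0) : (tM : M4 F) * XX 3 * tI = XX 5 := by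
  ext i j
  rcases i with i | i <;> rcases j with j | j <;> fin_cases i <;> fin_cases j <;>
    simp [tM, tI, XX, eps, sz, sx, Matrix.J, Matrix.mul_apply, Fintype.sum_sum_type, Fin.sum_univ_two,
      Matrix.fromBlocks, Matrix.transpose_apply, Matrix.one_apply, Matrix.neg_apply] <;>
    first
      | linear_combination h3
      | linear_combination -h3
      | linear_combination (2 : F) * h3
      | linear_combination (-2 : F) * h3

theorem ttab_f4 (h3 : (3 : F) = 0) : (tM : M4 F) * XX 4 * tI = XX 3 := by
  ext i j
  rcases i with i | i <;> rcases j with j | j <;> fin_cases i <;> fin_cases j <;>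
    simp [tM, tI, XX, eps, sz, sx, Matrix.J, Matrix.mul_apply, Fintype.sum_sum_type, Fin.sum_univ_two,
      Matrix.fromBlocks, Matrix.transpose_apply, Matrix.one_apply, Matrix.neg_apply] <;>
    first
      | linear_combination h3
      | linear_combination -h3
      | linear_combination (2 : F) * h3
      | linear_combination (-2 : F) * h3

theorem ttab_f5 (h3 : (3 : F) = 0) : (tM : M4 F) * XX 5 * tI = XX 4 := by
  ext i j
  rcases i with i | i <;> rcases j with j | j <;> fin_cases i <;> fin_cases j <;>
    simp [tM, tI, XX, eps, sz, sx, Matrix.J, Matrix.mul_apply, Fintype.sum_sum_type, Fin.sum_univ_two,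
      Matrix.fromBlocks, Matrix.transpose_apply, Matrix.one_apply, Matrix.neg_apply] <;>
    first
      | linear_combination h3
      | linear_combination -h3
      | linear_combination (2 : F) * h3
      | linear_combination (-2 : F) * h3

theorem ttab_b0 (h3 : (3 : F) = 0) : (tI : M4 F) * XX 0 * tM = XX 0 := by
  ext i j
  rcases i with i | i <;> rcases j with j | j <;> fin_cases i <;> fin_cases j <;>
    simp [tM, tI, XX, eps, sz, sx, Matrix.J, Matrix.mul_apply, Fintype.sum_sum_type, Fin.sum_univ_two,
      Matrix.fromBlocks, Matrix.transpose_apply, Matrix.one_apply, Matrix.neg_apply] <;>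
    first
      | linear_combination h3
      | linear_combination -h3
      | linear_combination (2 : F) * h3
      | linear_combination (-2 : F) * h3

theorem ttab_b1 (h3 : (3 : F) = 0) : (tI : M4 F) * XX 1 * tM = -XX 1 := by
  ext i j
  rcases i with i | i <;> rcases j with j | j <;> fin_cases i <;> fin_cases j <;>
    simp [tM, tI, XX, eps, sz, sx, Matrix.J, Matrix.mul_apply, Fintype.sum_sum_type, Fin.sum_univ_two,
      Matrix.fromBlocks, Matrix.transpose_apply, Matrix.one_apply, Matrix.neg_apply] <;>
    first
      | linear_combination h3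
      | linear_combination -h3
      | linear_combination (2 : F) * h3
      | linear_combination (-2 : F) * h3

theorem ttab_b2 (h3 : (3 : F) = 0) : (tI : M4 F) * XX 2 * tM = -XX 2 := by
  ext i j
  rcases i with i | i <;> rcases j with j | j <;> fin_cases i <;> fin_cases j <;>
    simp [tM, tI, XX, eps, sz, sx, Matrix.J, Matrix.mul_apply, Fintype.sum_sum_type, Fin.sum_univ_two,
      Matrix.fromBlocks, Matrix.transpose_apply, Matrix.one_apply, Matrix.neg_apply] <;>
    first
      | linear_combination h3
      | linear_combination -h3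
      | linear_combination (2 : F) * h3
      | linear_combination (-2 : F) * h3

theorem ttab_b3 (h3 : (3 : F) = 0) : (tI : M4 F) * XX 3 * tM = XX 4 := by
  ext i j
  rcases i with i | i <;> rcases j with j | j <;> fin_cases i <;> fin_cases j <;>
    simp [tM, tI, XX, eps, sz, sx, Matrix.J, Matrix.mul_apply, Fintype.sum_sum_type, Fin.sum_univ_two,
      Matrix.fromBlocks, Matrix.transpose_apply, Matrix.one_apply, Matrix.neg_apply] <;>
    first
      | linear_combination h3
      | linear_combination -h3
      | linear_combination (2 : F) * h3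
      | linear_combination (-2 : F) * h3

theorem ttab_b4 (h3 : (3 : F) = 0) : (tI : M4 F) * XX 4 * tM = XX 5 := by
  ext i j
  rcases i with i | i <;> rcases j with j | j <;> fin_cases i <;> fin_cases j <;>
    simp [tM, tI, XX, eps, sz, sx, Matrix.J, Matrix.mul_apply, Fintype.sum_sum_type, Fin.sum_univ_two,
      Matrix.fromBlocks, Matrix.transpose_apply, Matrix.one_apply, Matrix.neg_apply] <;>
    first
      | linear_combination h3
      | linear_combination -h3
      | linear_combination (2 : F) * h3
      | linear_combination (-2 : F) * h3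

theorem ttab_b5 (h3 : (3 : F) = 0) : (tI : M4 F) * XX 5 * tM = XX 3 := by
  ext i j
  rcases i with i | i <;> rcases j with j | j <;> fin_cases i <;> fin_cases j <;>
    simp [tM, tI, XX, eps, sz, sx, Matrix.J, Matrix.mul_apply, Fintype.sum_sum_type, Fin.sum_univ_two,
      Matrix.fromBlocks, Matrix.transpose_apply, Matrix.one_apply, Matrix.neg_apply] <;>
    first
      | linear_combination h3
      | linear_combination -h3
      | linear_combination (2 : F) * h3
      | linear_combination (-2 : F) * h3

/-- TTAB. -/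
theorem t_tab (h3 : (3 : F) = 0) (i : Fin 6) :
    (∃ k : Fin 6, (tM : M4 F) * XX i * tI = XX k ∨ (tM : M4 F) * XX i * tI = -XX k) ∧
    (∃ k : Fin 6, (tI : M4 F) * XX i * tM = XX k ∨ (tI : M4 F) * XX i * tM = -XX k) := by
  fin_cases i
  · exact ⟨⟨0, Or.inl (ttab_f0 h3)⟩, ⟨0, Or.inl (ttab_b0 h3)⟩⟩
  · exact ⟨⟨1, Or.inr (ttab_f1 h3)⟩, ⟨1, Or.inr (ttab_b1 h3)⟩⟩
  · exact ⟨⟨2, Or.inr (ttab_f2 h3)⟩, ⟨2, Or.inr (ttab_b2 h3)⟩⟩
  · exact ⟨⟨5, Or.inl (ttab_f3 h3)⟩, ⟨4, Or.inl (ttab_b3 h3)⟩⟩
  · exact ⟨⟨3, Or.inl (ttab_f4 h3)⟩, ⟨5, Or.inl (ttab_b4 h3)⟩⟩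
  · exact ⟨⟨4, Or.inl (ttab_f5 h3)⟩, ⟨3, Or.inl (ttab_b5 h3)⟩⟩

/-- TTAB. -/
theorem t_J (h3 : (3 : F) = 0) : (tM : M4 F) * Matrix.J (Fin 2) F * tI ≠ Matrix.J (Fin 2) F ∧
    (tM : M4 F) * Matrix.J (Fin 2) F * tI ≠ -Matrix.J (Fin 2) F := by
  constructor
  · intro h
    have h1 := congrFun (congrFun h (Sum.inl 0)) (Sum.inl 0)
    simp [tM, tI, eps, Matrix.J, Matrix.mul_apply, Fintype.sum_sum_type, Fin.sum_univ_two,
      Matrix.fromBlocks, Matrix.one_apply, Matrix.neg_apply] at h1
  · intro h
    have h1 := congrFun (congrFun h (Sum.inl 0)) (Sum.inl 0)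
    simp [tM, tI, eps, Matrix.J, Matrix.mul_apply, Fintype.sum_sum_type, Fin.sum_univ_two,
      Matrix.fromBlocks, Matrix.one_apply, Matrix.neg_apply] at h1

end Cfsg.Agent.Lib.Helper66.Q3
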