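import Cfsg.Agent.Lib.Helper66.Q3.Defs
import Cfsg.Agent.Lib.Helper66.ASP4.ADJ
import Cfsg.Agent.Lib.Helper66.ASP4.SYMP
import Cfsg.Agent.Lib.Helper66.ASP4.IDEC

set_option autoImplicit false
set_option linter.unusedSectionVars false
set_option linter.unusedVariables false

namespace Cfsg.Agent.Lib.Helper66.Q3
open Cfsg Cfsg.Geo Cfsg.Agent.Lib.Helper66.ASP4
open scoped MatrixGroups Matrix
variable {F : Type*} [Field F]

theorem xmem_neg (j x : M4 F) (h : x ∈ InvSet j) : -x ∈ InvSet j := by
  obtain ⟨h1, h2, h3⟩ := h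
  refine ⟨?_, ?_, ?_⟩
  · unfold IsSp at h1 ⊢
    rw [Matrix.transpose_neg, neg_mul, neg_mul, mul_neg, neg_neg, h1]
  · rw [neg_mul_neg, h2]
  · rcases h3 with h3 | h3
    · left; rw [neg_mul, mul_neg, h3]
    · right; rw [neg_mul, mul_neg, h3]

/-- criterion by blocks. -/
theorem xmem_blocks (A B C D : Matrix (Fin 2) (Fin 2) F)
    (s1 : Cᵀ * A - Aᵀ * C = 0) (s2 : Cᵀ * B - Aᵀ * D = -1) (s3 : Dᵀ * A - Bᵀ * C = 1)
    (s4 : Dᵀ * B - Bᵀ * D = 0)
    (q1 : A * A + B * C = 1) (q2 : A * B + B * D = 0) (q3 : C * A + D * C = 0) (q4 : C * B + D * D = 1)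
    (c : (B = -C ∧ A = D) ∨ (B = C ∧ A = -D)) :
    (Matrix.fromBlocks A B C D : M4 F) ∈ InvSet (Matrix.J (Fin 2) F) := by
  refine ⟨?_, ?_, ?_⟩
  · unfold IsSp Matrix.J
    rw [Matrix.fromBlocks_transpose, Matrix.fromBlocks_multiply, Matrix.fromBlocks_multiply]
    simp only [mul_zero, mul_one, zero_add, add_zero, mul_neg, neg_mul]
    rw [Matrix.fromBlocks_inj]
    refine ⟨?_, ?_, ?_, ?_⟩
    · rw [← s1]; abel
    · rw [← s2]; abel
    · rw [← s3]; abel
    · rw [← s4]; abel
  · rw [Matrix.fromBlocks_multiply, q1, q2, q3, q4, Matrix.fromBlocks_one]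
  · unfold Matrix.J
    rw [Matrix.fromBlocks_multiply, Matrix.fromBlocks_multiply]
    simp only [mul_zero, mul_one, zero_add, add_zero, mul_neg, neg_mul, zero_mul, one_mul]
    rcases c with ⟨c1, c2⟩ | ⟨c1, c2⟩
    · left
      rw [Matrix.fromBlocks_inj]
      refine ⟨?_, ?_, ?_, ?_⟩
      all_goals simp [c1, c2]
    · right
      rw [Matrix.fromBlocks_neg, Matrix.fromBlocks_inj]
      refine ⟨?_, ?_, ?_, ?_⟩
      all_goals simp [c1, c2]

/-- XMEM. -/
theorem XX_mem (h3 : (3 : F) = 0) (i : Fin 6) :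
    XX i ∈ InvSet (Matrix.J (Fin 2) F) ∧ -XX i ∈ InvSet (Matrix.J (Fin 2) F) := by
  have h21 : (1 : F) + 1 = -1 := by linear_combination h3
  have key : XX i ∈ InvSet (Matrix.J (Fin 2) F) := by
    fin_cases i
    · change (1 : M4 F) ∈ _
      rw [← Matrix.fromBlocks_one]
      apply xmem_blocks <;> simp
    · change (Matrix.fromBlocks sz 0 0 sz : M4 F) ∈ _
      apply xmem_blocks
      all_goals first
        | (left; exact ⟨by simp, rfl⟩)
        | (ext a b; fin_cases a <;> fin_cases b <;> simp [sz, Matrix.mul_apply, Fin.sum_univ_two])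
    · change (Matrix.fromBlocks sx 0 0 sx : M4 F) ∈ _
      apply xmem_blocks
      all_goals first
        | (left; exact ⟨by simp, rfl⟩)
        | (ext a b; fin_cases a <;> fin_cases b <;> simp [sx, Matrix.mul_apply, Fin.sum_univ_two])
    · change (Matrix.fromBlocks 0 (-eps) eps 0 : M4 F) ∈ _
      apply xmem_blocks
      all_goals first
        | (left; exact ⟨rfl, rfl⟩)
        | (ext a b; fin_cases a <;> fin_cases b <;> simp [eps, Matrix.mul_apply, Fin.sum_univ_two])
    · change (Matrix.fromBlocks eps eps eps (-eps) : M4 F) ∈ _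
      apply xmem_blocks
      all_goals first
        | (right; exact ⟨rfl, by simp⟩)
        | (ext a b; fin_cases a <;> fin_cases b <;> simp [eps, Matrix.mul_apply, Fin.sum_univ_two] <;>
            linear_combination h3)
        | (ext a b; fin_cases a <;> fin_cases b <;> simp [eps, Matrix.mul_apply, Fin.sum_univ_two] <;>
            linear_combination -h3)
        | (ext a b; fin_cases a <;> fin_cases b <;> simp [eps, Matrix.mul_apply, Fin.sum_univ_two])
    · change (Matrix.fromBlocks eps (-eps) (-eps) (-eps) : M4 F) ∈ _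
      apply xmem_blocks
      all_goals first
        | (right; exact ⟨rfl, by simp⟩)
        | (ext a b; fin_cases a <;> fin_cases b <;> simp [eps, Matrix.mul_apply, Fin.sum_univ_two] <;>
            linear_combination h3)
        | (ext a b; fin_cases a <;> fin_cases b <;> simp [eps, Matrix.mul_apply, Fin.sum_univ_two] <;>
            linear_combination -h3)
        | (ext a b; fin_cases a <;> fin_cases b <;> simp [eps, Matrix.mul_apply, Fin.sum_univ_two])
  exact ⟨key, xmem_neg _ _ key⟩

end Cfsg.Agent.Lib.Helper66.Q3
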