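import Cfsg.Agent.Lib.Helper66.Q3.SPM
import Cfsg.Agent.Lib.Helper66.Q3.FRAME
import Cfsg.Agent.Lib.Helper66.Q3.EXJ
import Cfsg.Agent.Lib.Helper66.Q3.CONJJ
import Cfsg.Agent.Lib.Helper66.Q3.ADA
import Cfsg.Agent.Lib.Helper66.Q3.ADC
import Cfsg.Agent.Lib.Helper66.Q3.ADP
import Cfsg.Agent.Lib.Helper66.Q3.DETC
import Cfsg.Agent.Lib.Helper66.Q3.DETA
import Cfsg.Agent.Lib.Helper66.Q3.XMEM
import Cfsg.Agent.Lib.Helper66.Q3.TTAB
import Cfsg.Agent.Lib.Helper66.Q3.SNOT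
import Cfsg.Agent.Lib.Helper66.Q3.STABN
import Cfsg.Agent.Lib.Helper66.Q3.TRANS
import Cfsg.Agent.Lib.Helper66.Q3.DUAL
import Cfsg.Agent.Lib.Helper66.Q3.BLK
import Cfsg.Agent.Lib.Helper66.Q3.COMM
import Cfsg.Agent.Lib.Helper66.Q3.OUT2A

set_option autoImplicit false
set_option linter.unusedSectionVars false
set_option linter.unusedVariables false

namespace Cfsg.Agent.Lib.Helper66.Q3
open Cfsg Cfsg.Geo Cfsg.Agent.Lib.Helper66.ASP4
open scoped MatrixGroups Matrix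
variable {F : Type*} [Field F]

/-- the stabiliser of `InvSet j` under conjugation. -/
def StabInv (j : M4 F) : Subgroup (GL (Fin 2 ⊕ Fin 2) F) where
  carrier := {g | ∀ x : M4 F, x ∈ InvSet j ↔
    (g : M4 F) * x * ((g⁻¹ : GL (Fin 2 ⊕ Fin 2) F) : M4 F) ∈ InvSet j}
  mul_mem' {a b} ha hb := by
    intro k
    rw [hb k, ha, Units.val_mul, mul_inv_rev, Units.val_mul]
    constructor <;> intro h <;> simpa [mul_assoc] using h
  one_mem' := by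
    intro k
    simp
  inv_mem' {a} ha := by
    intro k
    rw [ha (((a⁻¹ : GL (Fin 2 ⊕ Fin 2) F) : M4 F) * k * (((a⁻¹)⁻¹ : GL (Fin 2 ⊕ Fin 2) F) : M4 F))]
    have : (a : M4 F) * (((a⁻¹ : GL (Fin 2 ⊕ Fin 2) F) : M4 F) * k *
        (((a⁻¹)⁻¹ : GL (Fin 2 ⊕ Fin 2) F) : M4 F)) * ((a⁻¹ : GL (Fin 2 ⊕ Fin 2) F) : M4 F) = k := by
      rw [inv_inv]
      calc (a : M4 F) * (((a⁻¹ : GL (Fin 2 ⊕ Fin 2) F) : M4 F) * k * (a : M4 F)) *
            ((a⁻¹ : GL (Fin 2 ⊕ Fin 2) F) : M4 F)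
          = ((a : M4 F) * ((a⁻¹ : GL (Fin 2 ⊕ Fin 2) F) : M4 F)) * k *
            ((a : M4 F) * ((a⁻¹ : GL (Fin 2 ⊕ Fin 2) F) : M4 F)) := by simp only [mul_assoc]
        _ = k := by rw [← Units.val_mul, mul_inv_cancel, Units.val_one, one_mul, mul_one]
    rw [this]

theorem main_three [Fintype F] (hq : Fintype.card F = 3) : (3 : F) = 0 := by
  have h := Nat.cast_card_eq_zero F
  rw [hq] at h
  exact_mod_cast h

theorem main_two [Fintype F] (hq : Fintype.card F = 3) : (2 : F) ≠ 0 := by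
  intro h
  have h3 := main_three hq
  have : (1 : F) = 0 := by linear_combination h3 - h
  exact one_ne_zero this

theorem main_val_inv (P : GL (Fin 2 ⊕ Fin 2) F) :
    (P : M4 F) * ((P⁻¹ : GL (Fin 2 ⊕ Fin 2) F) : M4 F) = 1 := by
  rw [← Units.val_mul, mul_inv_cancel, Units.val_one]

theorem main_inv_val (P : GL (Fin 2 ⊕ Fin 2) F) :
    ((P⁻¹ : GL (Fin 2 ⊕ Fin 2) F) : M4 F) * (P : M4 F) = 1 := by
  rw [← Units.val_mul, inv_mul_cancel, Units.val_one]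

theorem main_cases [Fintype F] (hq : Fintype.card F = 3) (z : M4 F) (hz : z ∈ InvSet (Matrix.J (Fin 2) F)) :
    ∃ i : Fin 6, z = XX i ∨ z = -XX i := by
  obtain ⟨hs, h1, hc | hc⟩ := hz
  · exact det_comm hq z hs h1 hc
  · exact det_anti hq z hs h1 hc

/-- `t` stabilises `InvSet J`. -/
theorem main_t_stab [Fintype F] (hq : Fintype.card F = 3) (z : M4 F) :
    z ∈ InvSet (Matrix.J (Fin 2) F) ↔ (tM : M4 F) * z * tI ∈ InvSet (Matrix.J (Fin 2) F) := by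
  have h3 := main_three hq
  constructor
  · intro hz
    obtain ⟨i, rfl | rfl⟩ := main_cases hq z hz
    · obtain ⟨k, h | h⟩ := (t_tab h3 i).1
      · rw [h]; exact (XX_mem h3 k).1
      · rw [h]; exact (XX_mem h3 k).2
    · obtain ⟨k, h | h⟩ := (t_tab h3 i).1
      · rw [mul_neg, neg_mul, h]; exact (XX_mem h3 k).2
      · rw [mul_neg, neg_mul, h, neg_neg]; exact (XX_mem h3 k).1
  · intro hz
    have hzz : z = (tI : M4 F) * ((tM : M4 F) * z * tI) * tM := by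
      calc z = ((tI : M4 F) * tM) * z * ((tI : M4 F) * tM) := by rw [t_inv.2, one_mul, mul_one]
        _ = (tI : M4 F) * ((tM : M4 F) * z * tI) * tM := by simp only [mul_assoc]
    obtain ⟨i, h | h⟩ := main_cases hq _ hz
    · rw [hzz, h]
      obtain ⟨k, h | h⟩ := (t_tab h3 i).2
      · rw [h]; exact (XX_mem h3 k).1
      · rw [h]; exact (XX_mem h3 k).2
    · rw [hzz, h]
      obtain ⟨k, h | h⟩ := (t_tab h3 i).2
      · rw [mul_neg, neg_mul, h]; exact (XX_mem h3 k).2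
      · rw [mul_neg, neg_mul, h, neg_neg]; exact (XX_mem h3 k).1

/-- conjugation bookkeeping: `P⁻¹ ((P u P⁻¹) x (P u' P⁻¹)) P = u (P⁻¹ x P) u'`. -/
theorem main_book (P : GL (Fin 2 ⊕ Fin 2) F) (u u' x : M4 F) :
    ((P⁻¹ : GL (Fin 2 ⊕ Fin 2) F) : M4 F) * (((P : M4 F) * u * ((P⁻¹ : GL (Fin 2 ⊕ Fin 2) F) : M4 F)) * x *
      ((P : M4 F) * u' * ((P⁻¹ : GL (Fin 2 ⊕ Fin 2) F) : M4 F))) * (P : M4 F) =
    u * (((P⁻¹ : GL (Fin 2 ⊕ Fin 2) F) : M4 F) * x * (P : M4 F)) * u' := by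
  calc _ = (((P⁻¹ : GL (Fin 2 ⊕ Fin 2) F) : M4 F) * (P : M4 F)) * u *
        (((P⁻¹ : GL (Fin 2 ⊕ Fin 2) F) : M4 F) * x * (P : M4 F)) * u' *
        (((P⁻¹ : GL (Fin 2 ⊕ Fin 2) F) : M4 F) * (P : M4 F)) := by simp only [mul_assoc]
    _ = _ := by rw [main_inv_val, one_mul, mul_one]

/-- **Q3, field case**: the normaliser of a non-self-adjoint quadratic field is not maximal in `Sp_4(3)`. -/
theorem q3_field [Fintype F] (hq : Fintype.card F = 3) (H : Subgroup (GL (Fin 2 ⊕ Fin 2) F))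
    (hH : IsMaximalIn (spGL 2 F) H) (K : Subalgebra F (Matrix (Fin 2 ⊕ Fin 2) (Fin 2 ⊕ Fin 2) F))
    (hK : IsFieldSubalgebra 2 K) (hadj : IsAdjointClosedFor (sympForm 2 F) K)
    (hns : ¬ IsSelfAdjointFor (sympForm 2 F) K) (hHK : H ≤ subalgebraNormalizer K) : False := by
  have h3 := main_three hq
  obtain ⟨j, hjK, hadjj, hjj⟩ := exists_j hq K hK hadj hns
  obtain ⟨P, hP, hjP⟩ := exists_adapted hq j hadjj hjj
  have hle : H ≤ spGL 2 F := hH.1.le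
  have hHX : H ≤ StabInv j := fun g hg x =>
    stab_of_conj j g (hle hg) (conj_j K hK j hjK hjj g (hHK hg)) x
  obtain ⟨tG, htG⟩ : ∃ tG : GL (Fin 2 ⊕ Fin 2) F, tG = ⟨tM, tI, t_inv.1, t_inv.2⟩ := ⟨_, rfl⟩
  obtain ⟨sG, hsG⟩ : ∃ sG : GL (Fin 2 ⊕ Fin 2) F, sG = ⟨sM, sI, (s_not h3).2.1, (s_not h3).2.2.1⟩ := ⟨_, rfl⟩
  have htv : (tG : M4 F) = tM := by rw [htG]
  have hti : ((tG⁻¹ : GL (Fin 2 ⊕ Fin 2) F) : M4 F) = tI := by rw [htG]; rfl
  have hsv : (sG : M4 F) = sM := by rw [hsG]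
  have hsi : ((sG⁻¹ : GL (Fin 2 ⊕ Fin 2) F) : M4 F) = sI := by rw [hsG]; rfl
  have htsp : P * tG * P⁻¹ ∈ spGL 2 F :=
    mul_mem (mul_mem hP ((mem_spGL_iff tG).2 (by rw [htv]; exact t_sp h3))) (inv_mem hP)
  have hssp : P * sG * P⁻¹ ∈ spGL 2 F :=
    mul_mem (mul_mem hP ((mem_spGL_iff sG).2 (by rw [hsv]; exact (s_not h3).1))) (inv_mem hP)
  have hv : ∀ u : GL (Fin 2 ⊕ Fin 2) F, ((P * u * P⁻¹ : GL (Fin 2 ⊕ Fin 2) F) : M4 F) =
      (P : M4 F) * (u : M4 F) * ((P⁻¹ : GL (Fin 2 ⊕ Fin 2) F) : M4 F) := by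
    intro u
    rw [Units.val_mul, Units.val_mul]
  have hvi : ∀ u : GL (Fin 2 ⊕ Fin 2) F, (((P * u * P⁻¹)⁻¹ : GL (Fin 2 ⊕ Fin 2) F) : M4 F) =
      (P : M4 F) * ((u⁻¹ : GL (Fin 2 ⊕ Fin 2) F) : M4 F) * ((P⁻¹ : GL (Fin 2 ⊕ Fin 2) F) : M4 F) := by
    intro u
    have : (P * u * P⁻¹)⁻¹ = P * u⁻¹ * P⁻¹ := by group
    rw [this, Units.val_mul, Units.val_mul]
  have htX : P * tG * P⁻¹ ∈ StabInv j := by
    intro x
    rw [invSet_conj j P hP hjP x, invSet_conj j P hP hjP, hv, hvi, main_book, htv, hti]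
    exact main_t_stab hq _
  have hJ : ((P⁻¹ : GL (Fin 2 ⊕ Fin 2) F) : M4 F) * j * (P : M4 F) = Matrix.J (Fin 2) F := by
    rw [mul_assoc, hjP, ← mul_assoc, main_inv_val, one_mul]
  have htH : P * tG * P⁻¹ ∉ H := by
    intro hmem
    have h := conj_j K hK j hjK hjj _ (hHK hmem)
    rw [hv, hvi] at h
    have hb := main_book P (tG : M4 F) ((tG⁻¹ : GL (Fin 2 ⊕ Fin 2) F) : M4 F) j
    rw [hJ, htv, hti] at hb
    rw [htv, hti] at h
    rcases h with h | h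
    · rw [h, hJ] at hb
      exact (t_J h3).1 hb.symm
    · rw [h, mul_neg, neg_mul, hJ] at hb
      exact (t_J h3).2 hb.symm
  have hsX : P * sG * P⁻¹ ∉ StabInv j := by
    intro hmem
    have hx : (P : M4 F) * XX 2 * ((P⁻¹ : GL (Fin 2 ⊕ Fin 2) F) : M4 F) ∈ InvSet j := by
      rw [invSet_conj j P hP hjP]
      have : ((P⁻¹ : GL (Fin 2 ⊕ Fin 2) F) : M4 F) * ((P : M4 F) * XX 2 *
          ((P⁻¹ : GL (Fin 2 ⊕ Fin 2) F) : M4 F)) * (P : M4 F) = XX 2 := by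
        calc _ = (((P⁻¹ : GL (Fin 2 ⊕ Fin 2) F) : M4 F) * (P : M4 F)) * XX 2 *
              (((P⁻¹ : GL (Fin 2 ⊕ Fin 2) F) : M4 F) * (P : M4 F)) := by simp only [mul_assoc]
          _ = _ := by rw [main_inv_val, one_mul, mul_one]
      rw [this]
      exact (XX_mem h3 2).1
    have h := (hmem _).1 hx
    rw [invSet_conj j P hP hjP, hv, hvi, main_book, hsv, hsi] at h
    have : ((P⁻¹ : GL (Fin 2 ⊕ Fin 2) F) : M4 F) * ((P : M4 F) * XX 2 *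
        ((P⁻¹ : GL (Fin 2 ⊕ Fin 2) F) : M4 F)) * (P : M4 F) = XX 2 := by
      calc _ = (((P⁻¹ : GL (Fin 2 ⊕ Fin 2) F) : M4 F) * (P : M4 F)) * XX 2 *
            (((P⁻¹ : GL (Fin 2 ⊕ Fin 2) F) : M4 F) * (P : M4 F)) := by simp only [mul_assoc]
        _ = _ := by rw [main_inv_val, one_mul, mul_one]
    rw [this] at h
    exact (s_not h3).2.2.2 h
  rcases hH.2 (StabInv j ⊓ spGL 2 F) (le_inf hHX hle) inf_le_right with h | h
  · exact htH (h ▸ (⟨htX, htsp⟩ : P * tG * P⁻¹ ∈ StabInv j ⊓ spGL 2 F))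
  · have : P * sG * P⁻¹ ∈ StabInv j ⊓ spGL 2 F := by
      rw [h]
      exact hssp
    exact hsX this.1

/-- **Q3, totally singular pair**: over the field with 3 elements a subgroup of `Sp_4` stabilising a pair of
complementary totally singular planes stabilises a decomposition into two orthogonal non-degenerate planes. -/
theorem q3_ts [Fintype F] (hq : Fintype.card F = 3) (L : Subgroup (GL (Fin 2 ⊕ Fin 2) F)) (hL : L ≤ spGL 2 F)
    (D : Fin 2 → Submodule F (Fin 2 ⊕ Fin 2 → F)) (hD : IsMDecomposition 2 D)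
    (hts : ∀ i, IsTotallySingularFor (sympForm 2 F) (D i)) (hLD : L ≤ decompositionStabilizer D) : Out2 L := by
  have h3 := main_three hq
  have h2 := main_two hq
  obtain ⟨P, hP, h0, h1⟩ := exists_dual D hD hts
  have hsq : (XX 3 : M4 F) * XX 3 = 1 := (XX_mem h3 3).1.2.1
  obtain ⟨xG, hxG⟩ : ∃ xG : GL (Fin 2 ⊕ Fin 2) F, xG = ⟨XX 3, XX 3, hsq, hsq⟩ := ⟨_, rfl⟩
  have hxv : (xG : M4 F) = XX 3 := by rw [hxG]
  have hxx : xG * xG = 1 := by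
    apply Units.ext
    rw [Units.val_mul, hxv, hsq, Units.val_one]
  have hxsp : xG ∈ spGL 2 F := (mem_spGL_iff xG).2 (by rw [hxv]; exact (XX_mem h3 3).1.1)
  have hasp : P * xG * P⁻¹ ∈ spGL 2 F := mul_mem (mul_mem hP hxsp) (inv_mem hP)
  have haa : (P * xG * P⁻¹) * (P * xG * P⁻¹) = 1 := by
    have : (P * xG * P⁻¹) * (P * xG * P⁻¹) = P * (xG * xG) * P⁻¹ := by group
    rw [this, hxx, mul_one, mul_inv_cancel]
  have hainv : (P * xG * P⁻¹)⁻¹ = P * xG * P⁻¹ := inv_eq_of_mul_eq_one_left haa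
  have hne : ∀ c : M4 F, (c = 1 ∨ c = -1) → ((P * xG * P⁻¹ : GL (Fin 2 ⊕ Fin 2) F) : M4 F) ≠ c := by
    intro c hc h
    have h4 : (XX 3 : M4 F) = c := by
      have h5 : ((P⁻¹ : GL (Fin 2 ⊕ Fin 2) F) : M4 F) * ((P * xG * P⁻¹ : GL (Fin 2 ⊕ Fin 2) F) : M4 F) * (P : M4 F)
          = XX 3 := by
        rw [← Units.val_mul, ← Units.val_mul, ← hxv]
        congr 1
        group
      rw [h] at h5
      rcases hc with rfl | rfl
      · rw [mul_one, main_inv_val] at h5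
        exact h5.symm
      · rw [mul_neg, mul_one, neg_mul, main_inv_val] at h5
        exact h5.symm
    have h6 := congrFun (congrFun h4 (Sum.inl 0)) (Sum.inl 0)
    rcases hc with rfl | rfl
    · simp [XX] at h6
    · simp [XX] at h6
  apply out2_of_invol h2 L hL ((P * xG * P⁻¹ : GL (Fin 2 ⊕ Fin 2) F) : M4 F)
  · rw [← Units.val_mul, haa, Units.val_one]
  · rw [adj_of_mem 2 _ hasp, hainv]
  · exact hne 1 (Or.inl rfl)
  · exact hne (-1) (Or.inr rfl)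
  · intro g hg
    have hy : IsSp ((P⁻¹ * g * P : GL (Fin 2 ⊕ Fin 2) F) : M4 F) :=
      (mem_spGL_iff _).1 (mul_mem (mul_mem (inv_mem hP) (hL hg)) hP)
    have hc := comm_X3 hq _ hy (block_form D hD P h0 h1 g (hLD hg))
    have e1 : (g : M4 F) * (P : M4 F) = (P : M4 F) * ((P⁻¹ * g * P : GL (Fin 2 ⊕ Fin 2) F) : M4 F) := by
      rw [← Units.val_mul, ← Units.val_mul]
      congr 1
      group
    have e2 : ((P⁻¹ * g * P : GL (Fin 2 ⊕ Fin 2) F) : M4 F) * ((P⁻¹ : GL (Fin 2 ⊕ Fin 2) F) : M4 F) =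
        ((P⁻¹ : GL (Fin 2 ⊕ Fin 2) F) : M4 F) * (g : M4 F) := by
      rw [← Units.val_mul, ← Units.val_mul]
      congr 1
      group
    have e3 : ((P * xG * P⁻¹ : GL (Fin 2 ⊕ Fin 2) F) : M4 F) =
        (P : M4 F) * XX 3 * ((P⁻¹ : GL (Fin 2 ⊕ Fin 2) F) : M4 F) := by
      rw [Units.val_mul, Units.val_mul, hxv]
    rw [e3]
    have key : ∀ w : M4 F, ((P⁻¹ * g * P : GL (Fin 2 ⊕ Fin 2) F) : M4 F) * XX 3 = w →
        (g : M4 F) * ((P : M4 F) * XX 3 * ((P⁻¹ : GL (Fin 2 ⊕ Fin 2) F) : M4 F)) *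
          ((g⁻¹ : GL (Fin 2 ⊕ Fin 2) F) : M4 F) =
        (P : M4 F) * w * ((P⁻¹ : GL (Fin 2 ⊕ Fin 2) F) : M4 F) * ((g⁻¹ : GL (Fin 2 ⊕ Fin 2) F) : M4 F) := by
      intro w hw
      rw [← hw]
      calc _ = ((g : M4 F) * (P : M4 F)) * XX 3 * ((P⁻¹ : GL (Fin 2 ⊕ Fin 2) F) : M4 F) *
            ((g⁻¹ : GL (Fin 2 ⊕ Fin 2) F) : M4 F) := by simp only [mul_assoc]
        _ = _ := by rw [e1]; simp only [mul_assoc]
    have fin : (P : M4 F) * (XX 3 * ((P⁻¹ * g * P : GL (Fin 2 ⊕ Fin 2) F) : M4 F)) *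
        ((P⁻¹ : GL (Fin 2 ⊕ Fin 2) F) : M4 F) * ((g⁻¹ : GL (Fin 2 ⊕ Fin 2) F) : M4 F) =
        (P : M4 F) * XX 3 * ((P⁻¹ : GL (Fin 2 ⊕ Fin 2) F) : M4 F) := by
      calc _ = (P : M4 F) * XX 3 * (((P⁻¹ * g * P : GL (Fin 2 ⊕ Fin 2) F) : M4 F) *
            ((P⁻¹ : GL (Fin 2 ⊕ Fin 2) F) : M4 F)) * ((g⁻¹ : GL (Fin 2 ⊕ Fin 2) F) : M4 F) := by
              simp only [mul_assoc]
        _ = (P : M4 F) * XX 3 * ((P⁻¹ : GL (Fin 2 ⊕ Fin 2) F) : M4 F) *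
            ((g : M4 F) * ((g⁻¹ : GL (Fin 2 ⊕ Fin 2) F) : M4 F)) := by rw [e2]; simp only [mul_assoc]
        _ = _ := by rw [main_val_inv, mul_one]
    rcases hc with hc | hc
    · left
      rw [key _ hc, fin]
    · right
      rw [key _ hc, mul_neg, neg_mul, neg_mul, fin]

end Cfsg.Agent.Lib.Helper66.Q3
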