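import Cfsg.Agent.Lib.Helper66.Q3.Defs
import Cfsg.Agent.Lib.Helper66.ASP4.ADJ
import Cfsg.Agent.Lib.Helper66.ASP4.SYMP
import Cfsg.Agent.Lib.Helper66.ASP4.IDEC

set_option autoImplicit false
set_option linter.unusedSectionVars false
set_option linter.unusedVariables false

namespace Cfsg.Agent.Lib.Helper66.Q3
open Cfsg Cfsg.Geo Cfsg.Agent.Lib.Helper66.ASP4
open scoped MatrixGroups Matrix
variable {F : Type*} [Field F]

/-- SNOT (explicit matrices). -/
theorem s_not (h3 : (3 : F) = 0) : IsSp (sM : M4 F) ∧ (sM : M4 F) * sI = 1 ∧ (sI : M4 F) * sM = 1 ∧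
    (sM : M4 F) * XX 2 * sI ∉ InvSet (Matrix.J (Fin 2) F) := by
  have hy : (sM : M4 F) * XX 2 * sI = Matrix.fromBlocks sx eps 0 sx := by
    change (Matrix.fromBlocks 1 e11 0 1 : M4 F) * Matrix.fromBlocks sx 0 0 sx *
      Matrix.fromBlocks 1 (-e11) 0 1 = _
    rw [Matrix.fromBlocks_multiply, Matrix.fromBlocks_multiply, Matrix.fromBlocks_inj]
    refine ⟨?_, ?_, ?_, ?_⟩ <;>
      (ext a b; fin_cases a <;> fin_cases b <;> simp [sx, eps, e11, Matrix.mul_apply, Fin.sum_univ_two])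
  refine ⟨?_, ?_, ?_, ?_⟩
  · unfold IsSp Matrix.J sM
    rw [Matrix.fromBlocks_transpose, Matrix.fromBlocks_multiply, Matrix.fromBlocks_multiply,
      Matrix.fromBlocks_inj]
    refine ⟨?_, ?_, ?_, ?_⟩ <;>
      (ext a b; fin_cases a <;> fin_cases b <;> simp [e11, Matrix.mul_apply, Fin.sum_univ_two])
  · unfold sM sI
    rw [Matrix.fromBlocks_multiply, ← Matrix.fromBlocks_one, Matrix.fromBlocks_inj]
    refine ⟨?_, ?_, ?_, ?_⟩ <;> simp
  · unfold sM sI
    rw [Matrix.fromBlocks_multiply, ← Matrix.fromBlocks_one, Matrix.fromBlocks_inj]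
    refine ⟨?_, ?_, ?_, ?_⟩ <;> simp
  · rw [hy]
    rintro ⟨-, -, h | h⟩
    · unfold Matrix.J at h
      rw [Matrix.fromBlocks_multiply, Matrix.fromBlocks_multiply, Matrix.fromBlocks_inj] at h
      have h1 := congrFun (congrFun h.1 0) 1
      simp [eps, sx, Matrix.mul_apply, Fin.sum_univ_two] at h1
    · unfold Matrix.J at h
      rw [Matrix.fromBlocks_multiply, Matrix.fromBlocks_multiply, Matrix.fromBlocks_neg,
        Matrix.fromBlocks_inj] at h
      have h1 := congrFun (congrFun h.2.1 0) 1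
      simp [eps, sx, Matrix.mul_apply, Fin.sum_univ_two] at h1
      have h2 : (1 : F) = 0 := by linear_combination h3 + h1
      exact one_ne_zero h2

end Cfsg.Agent.Lib.Helper66.Q3
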